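import Cfsg.Agent.H36.K63Spec
import Cfsg.Agent.H28.CharKer
import Cfsg.Agent.H8.AutRank

set_option autoImplicit false

namespace H84.K63Ab
open Cfsg H36.K63

universe u

/-- The action of `MulAut V` on the abelianization. -/
def abAut (V : Type u) [Group V] : MulAut V →* MulAut (Abelianization V) where
  toFun σ := MulEquiv.abelianizationCongr σ
  map_one' := abelianizationCongr_refl
  map_mul' σ τ := by
    have := abelianizationCongr_trans τ σ
    exact this.symm

theorem abAut_of {V : Type u} [Group V] (σ : MulAut V) (v : V) :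
    abAut V σ (Abelianization.of v) = Abelianization.of (σ v) :=
  abelianizationCongr_of σ v

theorem job : JobAb.{u} := by
  intro hS V E _ _ _ _ p _ hV hE φ hφ b hb
  classical
  have hsurj : Function.Surjective (Abelianization.of : V →* Abelianization V) :=
    QuotientGroup.mk'_surjective (commutator V)
  have hker : (Abelianization.of : V →* Abelianization V).ker = commutator V :=
    Abelianization.ker_of V
  have : Finite (Abelianization V) := Finite.of_surjective _ hsurj
  have hW : IsPGroup p (Abelianization V) := hV.of_surjective _ hsurj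
  have hinj : Function.Injective ((abAut V).comp φ) := by
    rw [injective_iff_map_eq_one]
    intro e he
    apply hφ
    rw [map_one]
    refine H8.aut_eq_one_of_trivial_mod_frattini hV ?_ fun x => ?_
    · refine Nat.Coprime.symm ((Nat.Prime.coprime_iff_not_dvd Fact.out).2 fun h => hE ?_)
      exact h.trans ((orderOf_map_dvd φ e).trans (orderOf_dvd_natCard e))
    · apply H3.commutator_le_frattini_pgroup hV
      rw [← hker, MonoidHom.mem_ker, map_mul, map_inv, ← abAut_of]
      have : abAut V (φ e) = 1 := he
      rw [this, MulAut.one_apply, inv_mul_cancel]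
  have hex : ∀ ζ : IrrCharacter V, ∃ η : IrrCharacter (Abelianization V),
      ζ.1 1 = 1 → ∀ v, η.1 (Abelianization.of v) = ζ.1 v := by
    intro ζ
    by_cases h1 : ζ.1 1 = 1
    · obtain ⟨η, hη, hv⟩ := H28.Cfsg.IsIrrCharacter.exists_descend ζ.2 Abelianization.of hsurj
        (by rw [hker]; exact H28.Cfsg.IsCharacter.commutator_le_charKer
              (H28.Cfsg.IsIrrCharacter.isCharacter ζ.2) h1)
      exact ⟨⟨η, hη⟩, fun _ => hv⟩
    · exact ⟨⟨fun _ => 1, H28.isIrrCharacter_one⟩, fun h => absurd h h1⟩
  choose f hf using hex
  have finj : Set.InjOn f (b : Set (IrrCharacter V)) := by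
    intro a ha c hc h
    refine Subtype.ext (funext fun v => ?_)
    rw [← hf a (hb a ha) v, h, hf c (hb c hc) v]
  have hcard : Nat.card (Abelianization V) = (commutator V).index := rfl
  rw [← hcard]
  refine le_trans ?_ (hS p hW hE _ hinj (b.image f))
  rw [Finset.sum_image finj]
  refine Finset.sum_le_sum fun ζ hζ => comm_mono fun e he => ?_
  rw [mem_stabF] at he ⊢
  intro w
  obtain ⟨v, rfl⟩ := hsurj w
  show (f ζ).1 (abAut V (φ e) (Abelianization.of v)) = _
  rw [abAut_of, hf ζ (hb ζ hζ), hf ζ (hb ζ hζ), he]

end H84.K63Ab
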