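/- Users of Aschbacher's criterion for strong embedding (text of S1175 as a hypothesis). -/
import Cfsg.Agent.H51.Api2
import Cfsg.Agent.H46.Nil

set_option autoImplicit false

open Cfsg H46 H51 Subgroup

universe u

namespace H84.Asch

/-- The text of S1175. -/
def Asch : Prop :=
  ∀ {G : Type u} [Group G] [Finite G] [IsSimpleGroup G] (M : Subgroup G) (_ : M ≠ ⊤) (z : G)
    (_ : orderOf z = 2) (_ : z ∈ M) (_ : ∃ S : Sylow 2 G, z ∈ S ∧ ∀ s ∈ S, Commute s z)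
    (_ : ∀ g : G, g * z * g⁻¹ ∈ M → g ∈ M)
    (_ : ∀ g : G, Commute z (g * z * g⁻¹) → g * z * g⁻¹ ≠ z →
      Subgroup.centralizer ({z * (g * z * g⁻¹)} : Set G) ≤ M),
    ∃ H : Subgroup G, Cfsg.IsStronglyEmbedded H

theorem ord_conj {X : Type*} [Group X] (g x : X) : orderOf (g * x * g⁻¹) = orderOf x :=
  (MulAut.conj g).orderOf_eq x

theorem two_zpowers {X : Type*} [Group X] {x : X} (h : orderOf x = 2) : IsPGroup 2 (zpowers x) :=
  IsPGroup.of_card (n := 1) (by rw [Nat.card_zpowers, h, pow_one])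

theorem s1174 (hA : Asch.{u}) {X : Type u} [Group X] [Finite X] [IsSimpleGroup X] (S : Sylow 2 X)
    (T : Subgroup X) (hT1 : T ≠ ⊥) (hT : IsStronglyClosed T (S : Subgroup X))
    (hprop : (⨆ t : {t : X // t ∈ T ∧ orderOf t = 2}, Subgroup.centralizer ({(t : X)} : Set X)) ≠ ⊤) :
    ∃ H : Subgroup X, IsStronglyEmbedded H := by
  set M0 := ⨆ t : {t : X // t ∈ T ∧ orderOf t = 2}, Subgroup.centralizer ({(t : X)} : Set X) with hM0
  have hle : ∀ t ∈ T, orderOf t = 2 → Cent1 t ≤ M0 := fun t h1 h2 =>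
    le_iSup (fun t : {t : X // t ∈ T ∧ orderOf t = 2} => Subgroup.centralizer ({(t : X)} : Set X)) ⟨t, h1, h2⟩
  have hNT : Nrm (S : Subgroup X) ≤ Nrm T := fun n hn => mem_nrm_of_cj_le (by
    rintro _ ⟨x, hx, rfl⟩
    exact hT.2 x hx n (conj_mem_of_mem_nrm hn (hT.1 hx)))
  have hNM : Nrm T ≤ Nrm M0 := fun n hn => mem_nrm_of_cj_le (by
    rw [cj_le_iff]
    refine iSup_le fun t => ?_
    rw [← cj_le_iff, cj_cent1]
    exact hle _ (conj_mem_of_mem_nrm hn t.2.1) ((ord_conj n t).trans t.2.2))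
  have h1 := nil_meet_cent (nil_of_isPGroup Nat.prime_two S.2) (le_nrm_self.trans hNT)
    (by rwa [inf_of_le_left hT.1])
  obtain ⟨z, hz, hz2⟩ := cauchy (H := T ⊓ S ⊓ Cent S) Nat.prime_two
    ((isPi_of_isPGroup Nat.prime_two (S.2.to_le (inf_le_left.trans inf_le_right))).prime_and_dvd h1).2
  have hSz : (S : Subgroup X) ≤ Cent1 z := le_cent1_iff.2 hz.2
  have hzM : z ∈ M0 := hle z hz.1.1 hz2 (self_mem_cent1 z)
  have hS0 : (S : Subgroup X) ≤ M0 := hSz.trans (hle z hz.1.1 hz2)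
  have hsyl : ∀ {K : Subgroup X}, (S : Subgroup X) ≤ K → IsSylowOf 2 S K := fun h =>
    syl_mono Nat.prime_two (isSylowOf_top S) h le_top
  refine hA (Nrm M0) (fun e => ?_) z hz2 (le_nrm_self hzM) ⟨S, hz.1.2, fun s hs => hz.2 s hs⟩
    (fun g hg => ?_) fun g hc hne => le_trans ?_ le_nrm_self
  · rcases (normalizer_eq_top_iff.1 e).eq_bot_or_eq_top with h | h
    · rw [h, mem_bot] at hzM
      rw [hzM, orderOf_one] at hz2
      omega
    · exact hprop h
  · obtain ⟨m, hm, h2⟩ := sylow_cj_le Nat.prime_two (hsyl (hS0.trans le_nrm_self))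
      (two_zpowers ((ord_conj g z).trans hz2)) (zpowers_le.2 hg)
    rw [cj_zpowers, zpowers_le, show m * (g * z * g⁻¹) * m⁻¹ = m * g * z * (m * g)⁻¹ by group] at h2
    have h3 : cj (m * g) S ≤ M0 := by
      refine le_trans (cj_mono _ hSz) ?_
      rw [cj_cent1]
      exact hle _ (hT.2 z hz.1.1 _ h2) ((ord_conj _ z).trans hz2)
    obtain ⟨m0, hm0, h4⟩ := sylow_cj_le Nat.prime_two (hsyl hS0) (isPGroup_cj S.2 _) h3
    rw [← cj_mul] at h4
    have h5 := hNM (hNT (mem_nrm_of_cj_le h4))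
    exact (mul_mem_cancel_left hm).1 ((mul_mem_cancel_left (le_nrm_self hm0)).1 h5)
  · have h2 := (ord_conj g z).trans hz2
    obtain ⟨c, hcz, h3⟩ := sylow_cj_le Nat.prime_two (hsyl hSz) (two_zpowers h2)
      (zpowers_le.2 (mem_cent1.2 hc.eq.symm))
    rw [cj_zpowers, zpowers_le] at h3
    have h4 : c * (g * z * g⁻¹) * c⁻¹ ∈ T := by
      have := hT.2 z hz.1.1 (c * g) (by rwa [show c * g * z * (c * g)⁻¹ = c * (g * z * g⁻¹) * c⁻¹ by group])
      rwa [show c * g * z * (c * g)⁻¹ = c * (g * z * g⁻¹) * c⁻¹ by group] at this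
    have h5 : c * (z * (g * z * g⁻¹)) * c⁻¹ = z * (c * (g * z * g⁻¹) * c⁻¹) := by
      rw [← mul_assoc c z, mem_cent1.1 hcz]; group
    have hzz : z * z = 1 := by rw [← pow_two, ← hz2, pow_orderOf_eq_one]
    have h6 : orderOf (z * (g * z * g⁻¹)) = 2 := by
      refine orderOf_eq_prime ?_ fun e => hne ?_
      · rw [hc.mul_pow, ← h2, pow_orderOf_eq_one, h2, ← hz2, pow_orderOf_eq_one, mul_one]
      · rw [eq_inv_of_mul_eq_one_right e, inv_eq_of_mul_eq_one_right hzz]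
    have h7 := hle _ (h5 ▸ T.mul_mem hz.1.1 h4) ((ord_conj c _).trans h6)
    rw [← cj_cent1, cj_le_iff, cj_of_mem (M0.inv_mem (hle z hz.1.1 hz2 hcz))] at h7
    exact h7

end H84.Asch
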