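/- KP tower (S4202): class counts for a fixed cycle pattern. -/
import Cfsg.Agent.H2.KpSpec

set_option autoImplicit false
set_option linter.unusedSectionVars false

namespace H84.KpPC
open Equiv MulAction H2.Kp

variable {Γ α β : Type} [Group Γ] [Fintype α] [Fintype β] [DecidableEq β] {w : ℕ} (S : Sys Γ α β w)

/-- `y` fixes the fibre over `b` pointwise. -/
def St (y : Γ) (b : β) : Prop := ∀ a, S.π a = b → S.ρ y a = a

variable {S}

theorem st_comm {x y : Γ} (h : x * y = y * x) (b : β) : St S y (S.φ x b) ↔ St S y b := by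
  have e : ∀ a, S.ρ y (S.ρ x a) = S.ρ x (S.ρ y a) := fun a => by
    rw [← Perm.mul_apply, ← map_mul, ← h, map_mul, Perm.mul_apply]
  refine ⟨fun k a ha => (S.ρ x).injective ?_, fun k a ha => ?_⟩
  · rw [← e, k _ (by rw [S.eqv, ha])]
  · obtain ⟨a, rfl⟩ := (S.ρ x).surjective a
    rw [e, k a ((S.φ x).injective (by rw [← S.eqv, ha]))]

theorem three {b : β} {a₁ a₂ a₃ : α} (h1 : S.π a₁ = b) (h2 : S.π a₂ = b) (h3 : S.π a₃ = b)
    (n1 : a₁ ≠ a₂) (n2 : a₁ ≠ a₃) : a₂ = a₃ := by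
  by_contra n3
  have : 2 < (Finset.univ.filter fun a => S.π a = b).card :=
    Finset.two_lt_card.2 ⟨a₁, by simp [h1], a₂, by simp [h2], a₃, by simp [h3], n1, n2, n3⟩
  rw [S.fib] at this
  rcases S.w12 with e | e <;> omega

theorem st_one (hw : w = 1) {y : Γ} {b : β} (hy : S.φ y b = b) : St S y b := fun a ha => by
  exact Finset.card_le_one.1 ((S.fib b).trans hw).le _ (by simp [S.eqv, ha, hy]) _ (by simp [ha])

theorem ne_of_not_st {y : Γ} {b : β} (hy : S.φ y b = b) (n : ¬ St S y b) {a : α} (ha : S.π a = b) :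
    a ≠ S.ρ y a := fun e => n fun c hc => by
  by_contra k
  by_cases h : c = a
  · exact k (h ▸ e.symm)
  · have := three hc ha (by rw [S.eqv, hc, hy]) h (Ne.symm k)
    exact h ((S.ρ y).injective (this.symm.trans e))

theorem st_div {y z : Γ} {b : β} (hy : S.φ y b = b) (hz : S.φ z b = b) (h : St S z b ↔ St S y b) :
    St S (z⁻¹ * y) b := fun a ha => by
  rw [map_mul, map_inv, Perm.mul_apply, Perm.inv_eq_iff_eq]
  by_cases k : St S y b
  · rw [k a ha, h.2 k a ha]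
  · exact three ha (by rw [S.eqv, ha, hy]) (by rw [S.eqv, ha, hz]) (ne_of_not_st hy k ha)
      (ne_of_not_st hz (mt h.1 k) ha)

theorem exists_Z {κ : Type} (Y : Set Γ) (f : Γ → κ) (T : Finset κ) (hf : ∀ y ∈ Y, f y ∈ T) :
    ∃ Z : Finset Γ, Z.card ≤ T.card ∧ ∀ y ∈ Y, ∃ z ∈ Z, z ∈ Y ∧ f z = f y := by
  classical
  refine ⟨T.image fun P => if h : ∃ y ∈ Y, f y = P then h.choose else 1, Finset.card_image_le,
    fun y hy => ?_⟩
  have h : ∃ z ∈ Y, f z = f y := ⟨y, hy, rfl⟩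
  exact ⟨h.choose, Finset.mem_image.2 ⟨f y, hf y hy, dif_pos h⟩, h.choose_spec⟩

theorem key {t : ℕ} {a : ℕ → β} {σ : ℕ → ℕ} {R : Finset ℕ}
    (hR : ∀ i < t, i ∉ R → 0 < i ∧ σ (i - 1) = i) (Y : Set Γ)
    (h1 : ∀ y ∈ Y, ∀ i < t, S.φ y (a i) = a i)
    (h2 : ∀ y ∈ Y, ∃ x, x * y = y * x ∧ ∀ i, i + 1 < t → S.φ x (a i) = a (σ i)) :
    ∃ Z : Finset Γ, Z.card ≤ w ^ R.card ∧
      ∀ y ∈ Y, ∃ z ∈ Z, z ∈ Y ∧ ∀ i < t, (St S z (a i) ↔ St S y (a i)) := by
  classical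
  rcases S.w12 with hw | hw
  · obtain ⟨Z, k1, k2⟩ := exists_Z Y (fun _ => ()) {()} fun _ _ => by simp
    refine ⟨Z, by simpa [hw] using k1, fun y hy => (k2 y hy).imp fun z ⟨z1, z2, _⟩ =>
      ⟨z1, z2, fun i hi => iff_of_true (st_one hw (h1 z z2 i hi)) (st_one hw (h1 y hy i hi))⟩⟩
  obtain ⟨Z, k1, k2⟩ := exists_Z Y (fun y => R.filter fun i => St S y (a i)) R.powerset
    fun _ _ => Finset.mem_powerset.2 (Finset.filter_subset _ _)
  refine ⟨Z, by simpa [hw] using k1, fun y hy => (k2 y hy).imp fun z ⟨z1, z2, e⟩ =>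
    ⟨z1, z2, fun i => ?_⟩⟩
  have h3 : ∀ y ∈ Y, ∀ i, i + 1 < t → σ i = i + 1 → (St S y (a (i + 1)) ↔ St S y (a i)) :=
    fun y hy i hi e => by
      obtain ⟨x, x1, x2⟩ := h2 y hy
      rw [← e, ← x2 i hi, st_comm x1]
  have h4 : ∀ i ∈ R, (St S z (a i) ↔ St S y (a i)) := fun i hi => by
    simpa [hi] using Finset.ext_iff.1 e i
  induction i with
  | zero => exact fun hi => h4 0 (by_contra fun n => (hR 0 hi n).1.ne rfl)
  | succ i ih =>
    intro hi
    by_cases n : i + 1 ∈ R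
    · exact h4 _ n
    · rw [h3 z z2 i hi (hR _ hi n).2, h3 y hy i hi (hR _ hi n).2, ih (by omega)]

variable (S) in
/-- The elements that fix the first `t` blocks. -/
def HH (t : ℕ) (a : ℕ → β) : Subgroup Γ where
  carrier := {y | ∀ i < t, S.φ y (a i) = a i}
  mul_mem' hx hy i hi := by rw [map_mul, Perm.mul_apply, hy i hi, hx i hi]
  one_mem' i _ := by simp
  inv_mem' hx i hi := by rw [map_inv, Perm.inv_eq_iff_eq, hx i hi]

theorem conj_apply {t : ℕ} {a : ℕ → β} {h : Γ} (hh : h ∈ HH S t a) (x : Γ) {i : ℕ} (hi : i < t) :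
    S.φ (h * x * h⁻¹) (a i) = S.φ h (S.φ x (a i)) := by
  rw [map_mul, map_mul, Perm.mul_apply, Perm.mul_apply, inv_mem hh i hi]

theorem div_apply {x x' : Γ} {b : β} (e : S.φ x' b = S.φ x b) : S.φ (x⁻¹ * x') b = b := by
  rw [map_mul, map_inv, Perm.mul_apply, Perm.inv_eq_iff_eq, e]

theorem jobPC : PA → PC := by
  intro hA Γ α β _ _ _ _ _ w S t a σ R _ hσ hR
  have := hA Γ Unit (HH S t a) {x | ∀ i < t, S.φ x (a i) = a (σ i)} {()}
    (fun _ => {x | ∀ i < t, S.φ x (a i) = a (σ i)}) (fun _ => S.fb ⊤ ((Finset.range t).image a))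
    (w ^ R.card) (fun x hx h hh i hi => by rw [conj_apply hh x hi, hx i hi, hh _ (hσ i hi)])
    (fun x hx => ⟨(), by simp, hx⟩)
    (fun _ _ x hx x' hx' i hi => div_apply ((hx' i hi).trans (hx i hi).symm))
    (fun _ _ y hy i hi => Sys.fb_fix hy (Finset.mem_image_of_mem a (Finset.mem_range.2 hi)))
    fun _ _ => by
      obtain ⟨Z, k1, k2⟩ := key (S := S) (a := a) hR
        {y | y ∈ HH S t a ∧ ∃ x, x * y = y * x ∧ ∀ i, i + 1 < t → S.φ x (a i) = a (σ i)}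
        (fun y hy => hy.1) fun y hy => hy.2
      refine ⟨Z, k1, fun x hx y hy e => ?_⟩
      obtain ⟨z, z1, z2, z3⟩ := k2 y ⟨hy, x, e, fun i hi => hx i (by omega)⟩
      refine ⟨z, z1, Sys.mem_fb.2 ⟨trivial, fun c hc => ?_⟩⟩
      obtain ⟨i, hi, e⟩ := Finset.mem_image.1 hc
      rw [Finset.mem_range] at hi
      exact st_div (hy i hi) (z2.1 i hi) (z3 i hi) c e.symm
  simpa using this

theorem jobPO : PA → PO := by
  intro hA Γ α β _ _ _ _ _ w S t a σ R ht _ hσ hR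
  refine hA Γ β (HH S t a) _ _ (fun d => {x | (∀ i, i + 1 < t → S.φ x (a i) = a (σ i)) ∧
      S.φ x (a (t - 1)) = d}) (fun d => S.fb ⊤ (insert d ((Finset.range t).image a))) _
    (fun x hx h hh => ⟨fun i hi => ?_, fun i hi e => ?_⟩) (fun x hx => ⟨_, ?_, hx.1, rfl⟩)
    (fun d _ x hx x' hx' i hi => div_apply ?_) (fun d _ y hy i hi => Sys.fb_fix hy
      (Finset.mem_insert_of_mem (Finset.mem_image_of_mem a (Finset.mem_range.2 hi)))) fun d _ => ?_
  · rw [conj_apply hh x (by omega), hx.1 i hi, hh _ (hσ i (by omega))]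
  · rw [conj_apply hh x (by omega), ← hh i hi] at e
    exact hx.2 i hi ((S.φ h).injective e)
  · refine Finset.mem_compl.2 fun k => ?_
    obtain ⟨i, hi, e⟩ := Finset.mem_image.1 k
    exact hx.2 i (Finset.mem_range.1 hi) e.symm
  · by_cases k : i + 1 < t
    · rw [hx'.1 i k, hx.1 i k]
    · rw [show i = t - 1 by omega, hx'.2, hx.2]
  obtain ⟨Z, k1, k2⟩ := key (S := S) (a := a) hR
    {y | y ∈ HH S t a ∧ ∃ x, x * y = y * x ∧ (∀ i, i + 1 < t → S.φ x (a i) = a (σ i)) ∧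
      S.φ x (a (t - 1)) = d} (fun y hy => hy.1) fun y hy => hy.2.imp fun _ h => ⟨h.1, h.2.1⟩
  refine ⟨Z, k1, fun x hx y hy e => ?_⟩
  obtain ⟨z, z1, ⟨z2, u, u1, -, u2⟩, z3⟩ := k2 y ⟨hy, x, e, hx⟩
  have h0 : t - 1 < t := by omega
  have h1 : ∀ x y : Γ, y ∈ HH S t a → x * y = y * x → S.φ x (a (t - 1)) = d → S.φ y d = d :=
    fun x y hy e k => by
      rw [← k, ← Perm.mul_apply, ← map_mul, ← e, map_mul, Perm.mul_apply, hy _ h0]
  refine ⟨z, z1, Sys.mem_fb.2 ⟨trivial, fun c hc => ?_⟩⟩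
  rcases Finset.mem_insert.1 hc with k | hc
  · refine st_div (h1 x y hy e hx.2) (h1 u z z2 u1 u2) ?_ c k
    rw [← u2, st_comm u1, u2, ← hx.2, st_comm e, z3 _ h0]
  · obtain ⟨i, hi, e⟩ := Finset.mem_image.1 hc
    rw [Finset.mem_range] at hi
    exact st_div (hy i hi) (z2 i hi) (z3 i hi) c e.symm

end H84.KpPC
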