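/- Overgroups of `Ω₃(K)` for a cubic extension `K`: the stabilisers of members (after H91.OF3A). -/
import Cfsg.Agent.H91.OF3B

set_option autoImplicit false
set_option linter.unusedSectionVars false

namespace H84.OC

open QuadraticMap H56 H60 H62 H91 Module

section grp

variable {G : Type*} [Group G] {H U S U' S' : Subgroup G} {e : G}

/-- an abelian group of exponent three, of index at most three in the group that it determines -/
structure Sd (H U S : Subgroup G) : Prop where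
  le : U ≤ H
  norm : ∀ s ∈ S, ∀ u ∈ U, s * u * s⁻¹ ∈ U
  mal : ∀ g ∈ H, ∀ u ∈ U, u ≠ 1 → g * u * g⁻¹ ∈ U → g ∈ S
  comm : ∀ a ∈ U, ∀ b ∈ U, a * b = b * a
  cube : ∀ a ∈ U, a ^ 3 = 1
  three : ∀ s ∈ S, ∀ t ∈ S, s ∈ U ∨ t ∈ U ∨ s * t ∈ U ∨ s * t⁻¹ ∈ U
  big : ∃ s ∈ U, ∃ t ∈ U, s ≠ 1 ∧ t ≠ 1 ∧ s * t ≠ 1 ∧ s * t⁻¹ ≠ 1

theorem Sd.step (h : Sd H U S) (h' : Sd H U' S') (hd : ∀ g ∈ U, g ∈ U' → g = 1) (he : e ∈ U')
    (he' : e ∈ S) (h1 : e ≠ 1) : ∃ a ∈ U, ∃ ε ∈ U, ε ∈ S' ∧ ε ≠ 1 ∧ a * e * a⁻¹ = ε * e ∧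
      ε * e = e * ε := by
  have hS : ∀ a ∈ U, a * e = e * a → a ∈ S' := fun a ha f =>
    h'.mal a (h.le ha) e he h1 (by rwa [f, mul_inv_cancel_right])
  have hD : ∀ a ∈ U, a * (e * a * e⁻¹)⁻¹ ∈ U := fun a ha => U.mul_mem ha (U.inv_mem (h.norm e he' a ha))
  have key : ∀ a ∈ U, a * (e * a * e⁻¹)⁻¹ ≠ 1 → a * (e * a * e⁻¹)⁻¹ = e * (a * (e * a * e⁻¹)⁻¹) * e⁻¹ →
      ∃ a ∈ U, ∃ ε ∈ U, ε ∈ S' ∧ ε ≠ 1 ∧ a * e * a⁻¹ = ε * e ∧ ε * e = e * ε := fun a ha f1 f2 =>
    ⟨a, ha, _, hD a ha, hS _ (hD a ha) (eq_mul_inv_iff_mul_eq.1 f2), f1, by group,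
      eq_mul_inv_iff_mul_eq.1 f2⟩
  obtain ⟨a, ha, h2⟩ : ∃ a ∈ U, a * (e * a * e⁻¹)⁻¹ ≠ 1 := by
    by_contra! hc
    obtain ⟨s, hs, t, ht, f1, f2, f3, f4⟩ := h.big
    have h3 := fun a ha => hS a ha (eq_mul_inv_iff_mul_eq.1 (mul_inv_eq_one.1 (hc a ha)))
    rcases h'.three s (h3 s hs) t (h3 t ht) with f | f | f | f
    exacts [f1 (hd _ hs f), f2 (hd _ ht f), f3 (hd _ (U.mul_mem hs ht) f),
      f4 (hd _ (U.mul_mem hs (U.inv_mem ht)) f)]
  refine (em _).elim (key a ha h2) fun h3 => key _ (hD a ha) (mt mul_inv_eq_one.1 h3) ?_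
  have hb := h.norm e he' a ha
  have hc := h.norm e he' _ hb
  have h4 : e * (e * (e * a * e⁻¹) * e⁻¹) * e⁻¹ = a := by
    rw [show e * (e * (e * a * e⁻¹) * e⁻¹) * e⁻¹ = e ^ 3 * a * (e ^ 3)⁻¹ by simp [pow_succ, mul_assoc],
      h'.cube e he]; simp
  generalize hb' : e * a * e⁻¹ = b at hb hc h4
  generalize hc' : e * b * e⁻¹ = c at hc h4
  have k1 : ∀ x y, e * (x * y⁻¹) * e⁻¹ = e * x * e⁻¹ * (e * y * e⁻¹)⁻¹ := fun x y => by group
  simp only [k1, hb', hc', h4]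
  have i : ∀ b ∈ U, b⁻¹ = b * b := fun b hb => inv_eq_of_mul_eq_one_right (by
    rw [← mul_assoc, ← pow_three', h.cube b hb])
  calc _ = a * c * (b⁻¹ * b⁻¹) := by
        rw [mul_inv_rev, inv_inv, mul_assoc, ← mul_assoc b⁻¹, h.comm _ (U.inv_mem hb) c hc]; group
    _ = a * b * (c⁻¹ * c⁻¹) := by
        rw [← mul_inv_rev, ← mul_inv_rev, ← i b hb, ← i c hc, inv_inv, inv_inv, mul_assoc,
          h.comm c hc b hb, mul_assoc]
    _ = _ := by
        rw [h.comm a ha b hb, mul_assoc b, ← mul_assoc a, h.comm a ha _ (U.inv_mem hc)]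
        simp only [mul_assoc, mul_inv_rev, inv_inv]

theorem Sd.false (h : Sd H U S) (h' : Sd H U' S') (hd : ∀ g ∈ U, g ∈ U' → g = 1) (he : e ∈ U)
    (he' : e ∈ S') (h1 : e ≠ 1) : False := by
  obtain ⟨b, hb, d, hd1, hd2, h2, f1, f2⟩ := h'.step h (fun g h1 h2 => hd g h2 h1) he he' h1
  obtain ⟨a, ha, f3⟩ : ∃ a ∈ U, a * d * a⁻¹ = e⁻¹ * d := by
    obtain ⟨a, ha, ε, h3, h4, h5, f3, -⟩ := h.step h' hd hd1 hd2 h2
    rcases h'.three ε h4 e he' with f | f | f | f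
    · exact absurd (hd _ h3 f) h5
    · exact absurd (hd _ he f) h1
    · exact ⟨a, ha, by rw [f3, eq_inv_of_mul_eq_one_left (hd _ (U.mul_mem h3 he) f)]⟩
    obtain rfl := mul_inv_eq_one.1 (hd _ (U.mul_mem h3 (U.inv_mem he)) f)
    refine ⟨a⁻¹, U.inv_mem ha, ?_⟩
    calc _ = a⁻¹ * ε⁻¹ * (ε * d) * a := by group
      _ = _ := by rw [← f3, h.comm _ (U.inv_mem ha) _ (U.inv_mem he)]; group
  have f4 : a * e * a⁻¹ = e := by rw [h.comm a ha e he, mul_inv_cancel_right]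
  have f5 : b * d * b⁻¹ = d := by rw [h'.comm b hb d hd1, mul_inv_cancel_right]
  have f6 : a * b * a * e * (a * b * a)⁻¹ = d := by
    calc _ = a * (b * (a * e * a⁻¹) * b⁻¹) * a⁻¹ := by group
      _ = _ := by rw [f4, f1, ← conj_mul, f3, f4, mul_assoc, f2, inv_mul_cancel_left]
  have f7 : a * b * a * d * (a * b * a)⁻¹ = e⁻¹ := by
    calc _ = a * (b * (a * d * a⁻¹) * b⁻¹) * a⁻¹ := by group
      _ = _ := by
        rw [f3, ← conj_mul (b := b), ← conj_inv, f1, f5, mul_inv_rev, inv_mul_cancel_right, ← conj_inv, f4]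
  have hn : a * b * a ∈ H := H.mul_mem (H.mul_mem (h.le ha) (h'.le hb)) (h.le ha)
  generalize a * b * a = n at f6 f7 hn
  have f8 : n * n * d * (n * n)⁻¹ = d⁻¹ := by
    calc _ = n * (n * d * n⁻¹) * n⁻¹ := by group
      _ = _ := by rw [f7, ← conj_inv, f6]
  have hg := h.mal _ (H.mul_mem hn hn) e he h1 (by
    rw [show n * n * e * (n * n)⁻¹ = n * (n * e * n⁻¹) * n⁻¹ by group, f6, f7]; exact U.inv_mem he)
  generalize n * n = g at f8 hg
  have key : ∀ u ∈ U, u * d * u⁻¹ ≠ d⁻¹ := fun u hu f => by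
    have := hd _ (U.mul_mem hu (h.norm d hd2 _ (U.inv_mem hu))) (by
      rw [← mul_assoc, ← mul_assoc, f]; exact U'.mul_mem (U'.inv_mem hd1) (U'.inv_mem hd1))
    rw [← mul_assoc, ← mul_assoc, f, ← mul_inv_rev, inv_eq_one] at this
    exact h2 (by simpa [pow_three', this] using h'.cube d hd1)
  rcases h.three g hg d hd2 with f | f | f | f
  · exact key g f f8
  · exact h2 (hd _ f hd1)
  · exact key _ f (by rw [← f8]; group)
  · exact key _ f ((by group : _ = g * d * g⁻¹).trans f8)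

theorem three_cases (h : Nat.card G = 3) (a b : G) : a = 1 ∨ b = 1 ∨ a * b = 1 ∨ a * b⁻¹ = 1 := by
  have : Fact (Nat.Prime 3) := ⟨Nat.prime_three⟩
  refine or_iff_not_imp_left.2 fun _ => or_iff_not_imp_left.2 fun hb => ?_
  have h3 : b ^ 3 = 1 := h ▸ pow_card_eq_one'
  obtain ⟨k, rfl⟩ := mem_powers_of_prime_card h hb (g' := a)
  simp only [pow_eq_pow_mod k h3] at *
  have := Nat.mod_lt k three_pos
  generalize k % 3 = j at *
  interval_cases j <;> simp_all [← pow_succ]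

end grp

theorem aut_eq_one_of_cubic {F K : Type*} [Field F] [Field K] [Algebra F K] [Finite K]
    (h3 : finrank F K = 3) {θ : K ≃ₐ[F] K} {a b c d : K} (hb : b ≠ 0)
    (h : ∀ k, a * k + b * θ k + c * θ (θ k) + d * θ (θ (θ k)) = 0) : θ = 1 := by
  by_contra h1
  have : Fact (Nat.Prime 3) := ⟨Nat.prime_three⟩
  have h0 : θ ^ 3 = 1 := h3 ▸ aut_pow_finrank θ
  have h2 := orderOf_eq_prime h0 h1
  have h4 := H62.linearIndependent_aut (F := F) (K := K).comp (fun i : Fin 3 => θ ^ (i : ℕ))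
    fun i j e => Fin.ext (pow_injOn_Iio_orderOf (by simp; omega) (by simp; omega) e)
  refine hb (Fintype.linearIndependent_iff.1 h4 ![a + d, b, c] (LinearMap.ext fun k => ?_) 1)
  have := h k
  rw [show θ (θ (θ k)) = k from by simpa [pow_succ] using congrArg (· k) h0] at this
  simpa [Fin.sum_univ_three, pow_succ] using (by linear_combination this :
    (a + d) * k + b * θ k + c * θ (θ k) = 0)

variable {F K V : Type*} [Field F] [Field K] [Algebra F K] [AddCommGroup V] [Module F V]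
  [Module K V] [IsScalarTower F K V] {Q : QuadraticForm F V} {q : QuadraticForm K V} {c : Dual F K}
  {M : Subgroup (O Q)} {w u v x y : V} {A B : Submodule F V}

/-- dimension three over `K`, no element fixes the perp of a singular point -/
structure Ctx3c (Q : QuadraticForm F V) (q : QuadraticForm K V) (c : Dual F K) (M : Subgroup (O Q)) :
    Prop extends Ctx Q q c M where
  dim : finrank K V = 3
  r3 : finrank F K = 3
  det : ∀ g ∈ M, LinearMap.det g.lin = 1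
  z0 : ∀ w u, IsHyp q w u → Z0 q M w

variable [Finite K] [FiniteDimensional K V] [FiniteDimensional F V]

namespace Ctx3c

theorem odd (h : Ctx3c Q q c M) : Odd (finrank F K) := h.hr.odd_of_ne_two (by have := h.r3; omega)

theorem decomp (h : Ctx3c Q q c M) (hu : IsHyp q w u) (h1 : polar q w y = 0) (h2 : polar q u y = 0)
    (h3 : q y ≠ 0) (hx : polar q w x = 0) : ∃ a b : K, x = a • y + b • w := by
  have h4 : 2 * q y ≠ 0 := mul_ne_zero h.two h3
  refine ⟨polar q y x / (2 * q y), polar q u x, sub_eq_zero.1 (eq_zero_of_three h.toTrQ h.dim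
    (a := w) (b := u) (d := y) ⟨u, by simp [hu.ef]⟩ ⟨w, hu.ee, by simp [hu.fe]⟩
    ⟨y, h1, h2, by rwa [polar_self']⟩ ?_ ?_ ?_)⟩
  · simp [hx, h1, hu.ee]
  · simp [h2, hu.fe]
  · simp [pc h1, h4]

theorem act_W (h : Ctx3c Q q c M) (hu : IsHyp q w u) {g : O Q} (hg : g ∈ M) {s : K}
    (hs : s = 1 ∨ s = -1) (h1 : ∀ k : K, g (k • w) = s • k • w) :
    ∀ x, polar q w x = 0 → g x - x ∈ kl F K w := by
  obtain ⟨y, y1, y2, y3⟩ := hu.exists_perp_Q_ne h.nd h.h3
  have h2 : ∀ k : K, g (k • w) ∈ kl F K w := fun k => h1 k ▸ smul_mem_kl' _ (smul_mem_kl _ _)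
  have hss : s * s = 1 := by rcases hs with rfl | rfl <;> simp
  obtain ⟨l, m, hl⟩ := h.decomp hu y1 y2 y3 ((Ctx.pol_of_stab h.toTrQ h2 y).2 y1)
  have h3 : ∀ k : K, ∃ a : K, g (k • y) = (k * l) • y + a • w := fun k => by
    obtain ⟨θ, e1, e2⟩ := h.semilin hu (h.z0 w u hu) hg h2 k
    have e3 := e1 1
    rw [h1, h1, smul_comm θ] at e3
    have e4 := smul_left_injective K hu.ne_zero (by simpa [smul_smul] using congrArg (s • ·) e3 :
      (s * (s * k)) • w = (s * (s * θ)) • w)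
    simp only [← mul_assoc, hss, one_mul] at e4
    obtain ⟨a, ha⟩ := mem_kl.1 (e2 y y1)
    exact ⟨a + k * m, by rw [eq_add_of_sub_eq ha.symm, ← e4, hl]; module⟩
  have h4 : ∀ t : K, t * l = 1 → ∀ e : O q, e w = s • w → e y = t • y → ∀ x, polar q w x = 0 →
      g (e x) - x ∈ kl F K w := fun t ht e e1 e2 x hx => by
    obtain ⟨a, b, rfl⟩ := h.decomp hu y1 y2 y3 hx
    obtain ⟨d, hd⟩ := h3 (a * t)
    refine mem_kl.2 ⟨d, ?_⟩
    simp only [map_add, map_smul e, e1, e2, smul_smul, hd, h1, mul_assoc, ht, mul_left_comm s, hss]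
    module
  have h5 : (l - 1) * (l + 1) = 0 := by
    refine mul_right_cancel₀ y3 (by
      rw [zero_mul]
      refine h.sq_zero fun k => ?_
      obtain ⟨a, ha⟩ := h3 k
      have := g.map_Q (k • y)
      rw [ha, h.eq, h.eq, ← sub_eq_zero, ← map_sub] at this
      rw [← this]
      simp only [Q_add, Q_smul, hu.qe, polar_smul_left, polar_smul_right, pc y1, smul_zero]
      congr 1; ring)
  rcases mul_eq_zero.1 h5 with h6 | h6
  · intro x hx
    obtain ⟨a, b, rfl⟩ := h.decomp hu y1 y2 y3 hx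
    obtain ⟨d, hd⟩ := h3 a
    refine mem_kl.2 ⟨d + s * b - b, ?_⟩
    rw [map_add, hd, h1, sub_eq_zero.1 h6]
    module
  obtain ⟨e, e1, e2, e3⟩ : ∃ e : O q, e w = s • w ∧ e y = (-1 : K) • y ∧ LinearMap.det e.lin = -1 := by
    rcases hs with rfl | rfl
    · exact ⟨refl q y, by simp [refl_apply_of_orth (pc y1)], by simp [refl_apply_self y3], det_refl y3⟩
    · refine ⟨O.negOne q, by simp, by simp, ?_⟩
      rw [show (O.negOne q).lin = (-1 : K) • LinearMap.id from LinearMap.ext fun v => by simp,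
        LinearMap.det_smul, h.dim]
      norm_num
  have h7 := h.det_eq_one hu.qe (e := g * h.res e) (fun k => by
    simp [e1, smul_smul, h1, mul_left_comm s, hss]) (h4 (-1) (by linear_combination -h6) e e1 e2)
  rw [O.lin_mul, LinearMap.det_comp, h.det g hg, one_mul,
    show (h.res e).lin = e.lin.restrictScalars F from rfl, LinearMap.det_restrictScalars, e3,
    show (-1 : K) = algebraMap F K (-1) by simp, Algebra.norm_algebraMap, h.odd.neg_one_pow] at h7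
  exact absurd (by linear_combination -h7) h.two'

theorem std (h : Ctx3c Q q c M) (hA : Mem q M A) (hx : x ∈ A) (h0 : x ≠ 0) :
    ∃ g ∈ M, ∃ w u, IsHyp q w u ∧ g w = x ∧ A = img g (kl F K w) := by
  obtain ⟨g, hg, w, h1, h2, rfl⟩ := hA
  obtain ⟨k, hk⟩ := mem_kl.1 (mem_img.1 hx)
  have h3 : k • w ≠ 0 := by simpa [hk] using h0
  obtain ⟨u, hu⟩ := exists_isHyp h.nd h3 (by simp [Q_smul, h2])
  exact ⟨g, hg, _, u, hu, by simp [hk], by rw [kl_smul (left_ne_zero_of_smul h3)]⟩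

/-- the pointwise stabiliser of a member -/
theorem exists_unip (h : Ctx3c Q q c M) (hA : Mem q M A) : ∃ f : Multiplicative K →* O Q,
    (∀ k, f k ∈ M ∧ ∀ z ∈ A, f k z = z) ∧ (∀ e ∈ M, (∀ z ∈ A, e z = z) → ∃ k, e = f k) ∧
    (∀ k v, f k v = v → k = 1 ∨ v ∈ A) ∧
    ∀ k v, f k (f k (f k v)) - f k (f k v) - f k (f k v) - f k (f k v) + f k v + f k v + f k v = v := by
  obtain ⟨g, hg, w, h1, h2, rfl⟩ := hA
  obtain ⟨u, hu⟩ := exists_isHyp h.nd h1 h2
  obtain ⟨y, y1, y2, y3⟩ := hu.exists_perp_Q_ne h.nd h.h3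
  have y4 : ∀ k : K, polar q w (k • y) = 0 := fun k => by simp [y1]
  let f₀ : Multiplicative K →* O q :=
    { toFun := fun k => eich q w (k.toAdd • y)
      map_one' := by simp
      map_mul' := fun a b => by rw [toAdd_mul, add_smul, eich_add h2 (y4 _) (y4 _)] }
  have f1 : ∀ k v, ((MulAut.conj g).toMonoidHom.comp (h.res.comp f₀)) k (g v) =
      g (eich q w (k.toAdd • y) v) := fun k v => by simp [f₀]
  refine ⟨(MulAut.conj g).toMonoidHom.comp (h.res.comp f₀), fun k => ⟨M.mul_mem (M.mul_mem hg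
    (h.eich_mem _ _)) (M.inv_mem hg), fun z hz => ?_⟩, fun e he h3 => ?_, fun k v hv => ?_,
    fun k v => ?_⟩
  · obtain ⟨z, rfl⟩ := g.surjective z
    rw [f1, Ctx.eich_fix h2 (y4 _) (apply_mem_img.1 hz)]
  · have h4 : ∀ k : K, (g⁻¹ * e * g) (k • w) = k • w := fun k => by
      simp [h3 _ (apply_mem_img.2 (smul_mem_kl k w))]
    have h5 := M.mul_mem (M.mul_mem (M.inv_mem hg) he) hg
    obtain ⟨y', h6, h7⟩ := h.eq_eich hu (h.z0 w u hu) h5 h4
      (h.act_W hu h5 (Or.inl rfl) (by simpa using h4))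
    obtain ⟨a, b, rfl⟩ := h.decomp hu y1 y2 y3 h6
    refine ⟨Multiplicative.ofAdd a, O.ext fun v => ?_⟩
    obtain ⟨v, rfl⟩ := g.surjective v
    rw [f1, toAdd_ofAdd, ← eich_add_smul_self b h2 (y4 a), ← h.res_apply, ← h7]
    simp
  · obtain ⟨v, rfl⟩ := g.surjective v
    rw [f1, O.apply_inj, eich_apply h2 (y4 _)] at hv
    refine or_iff_not_imp_left.2 fun hk => apply_mem_img.2 ?_
    have hk' : k.toAdd ≠ 0 := hk
    have e1 := congrArg (polar q y) hv
    simp [pc y1, h.two, y3, hk'] at e1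
    obtain ⟨a, b, rfl⟩ := h.decomp hu y1 y2 y3 e1
    simp [y1, pc y1, hu.ee, h1, hk', h.two, y3] at hv
    simpa [hv] using smul_mem_kl b w
  · obtain ⟨v, rfl⟩ := g.surjective v
    simp only [f1, ← map_sub, ← map_add, O.apply_inj]
    simp only [eich_apply h2 (y4 _), polar_add_right, polar_sub_right,
      polar_smul_right, polar_smul_left, hu.ee, y1, pc y1, polar_self', smul_eq_mul, Q_smul]
    match_scalars <;> ring

/-- the stabiliser of a member and of a point on it acts by field automorphisms -/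
theorem exists_aut' (h : Ctx3c Q q c M) (hA : Mem q M A) (hx : x ∈ A) (h0 : x ≠ 0) :
    ∃ φ : K →ₗ[F] V, Function.Injective φ ∧ φ 1 = x ∧ (∀ z, z ∈ A ↔ ∃ k, φ k = z) ∧
      ∀ e ∈ M, (∀ z ∈ A, e z ∈ A) → ∀ s : F, e x = s • x →
        ∃ θ : K ≃ₐ[F] K, ∀ k, e (φ k) = s • φ (θ k) := by
  obtain ⟨g, hg, w, u, hu, rfl, rfl⟩ := h.std hA hx h0
  refine ⟨g.lin ∘ₗ (LinearMap.toSpanSingleton K V w).restrictScalars F,
    fun a b e => smul_left_injective K hu.ne_zero (g.injective e), by simp, fun z => ⟨fun hz => ?_,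
      by rintro ⟨k, rfl⟩; exact apply_mem_img.2 (smul_mem_kl k w)⟩, fun e he h1 s hs => ?_⟩
  · obtain ⟨k, hk⟩ := mem_kl.1 (mem_img.1 hz)
    exact ⟨k, by simp [hk]⟩
  have hs0 : s ≠ 0 := by rintro rfl; simp [hu.ne_zero] at hs
  choose θ hθ _ using h.semilin hu (h.z0 w u hu) (M.mul_mem (M.mul_mem (M.inv_mem hg) he) hg)
    fun k => by simpa using mem_img.1 (h1 _ (apply_mem_img.2 (smul_mem_kl k w)))
  have h2 : ∀ k, (g⁻¹ * e * g) (k • w) = s • θ k • w := fun k => by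
    simpa [hs, smul_comm (θ k)] using hθ k 1
  have h3 : ∀ {a b : K}, s • a • w = s • b • w → a = b := fun e =>
    smul_left_injective K hu.ne_zero (smul_right_injective V hs0 e)
  let θ' : K →ₐ[F] K := AlgHom.ofLinearMap
    { toFun := θ
      map_add' := fun a b => h3 (by rw [← h2, add_smul, map_add, h2, h2, add_smul, smul_add])
      map_smul' := fun a b => h3 (by
        rw [← h2, smul_assoc, map_smul, h2, smul_comm, RingHom.id_apply, smul_assoc]) }
    (h3 (by change s • θ 1 • w = _; rw [← h2]; simp [hs]))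
    fun a b => h3 (by change s • θ _ • w = s • (θ a * θ b) • w; rw [← h2, hθ, h2, mul_smul, smul_comm])
  refine ⟨AlgEquiv.ofBijective θ' (Finite.injective_iff_bijective.1 θ'.injective), fun k => ?_⟩
  have := h2 k
  rw [O.mul_apply, O.mul_apply, O.inv_apply_eq, map_smul g s] at this
  exact this

theorem exists_aut (h : Ctx3c Q q c M) (hA : Mem q M A) (hx : x ∈ A) (h0 : x ≠ 0) {e : O Q}
    (he : e ∈ M) (h1 : ∀ z ∈ A, e z ∈ A) {s : F} (hs : e x = s • x) :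
    ∃ (φ : K →ₗ[F] V) (θ : K ≃ₐ[F] K), Function.Injective φ ∧ φ 1 = x ∧ (∀ z ∈ A, ∃ k, φ k = z) ∧
      ∀ k, e (φ k) = s • φ (θ k) := by
  obtain ⟨φ, f1, f2, f3, f4⟩ := h.exists_aut' hA hx h0
  obtain ⟨θ, f5⟩ := f4 e he h1 s hs
  exact ⟨φ, θ, f1, f2, fun z => (f3 z).1, f5⟩

theorem smul_of_two (h : Ctx3c Q q c M) (hA : Mem q M A) (hx : x ∈ A) (h0 : x ≠ 0) (hy : y ∈ A)
    (hy' : y ∉ F ∙ x) {e : O Q} (he : e ∈ M) (h1 : ∀ z ∈ A, e z ∈ A) {s : F} (hs : e x = s • x)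
    (hs' : e y = s • y) : ∀ z ∈ A, e z = s • z := by
  obtain ⟨φ, θ, h2, rfl, h3, h4⟩ := h.exists_aut hA hx h0 he h1 hs
  obtain ⟨a, rfl⟩ := h3 y hy
  have hs0 : s ≠ 0 := by rintro rfl; simp [h0] at hs
  obtain rfl := aut_eq_one_of_fix h.hr (a := a) (θ := θ) (fun t e => hy' (by
    rw [← e, Algebra.algebraMap_eq_smul_one, map_smul]
    exact Submodule.smul_mem _ _ (Submodule.mem_span_singleton_self _)))
    (h2 (smul_right_injective V hs0 ((h4 a).symm.trans hs')))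
  intro z hz
  obtain ⟨a, rfl⟩ := h3 z hz
  exact h4 a

theorem pow_eq_smul (h : Ctx3c Q q c M) (hA : Mem q M A) (hx : x ∈ A) (h0 : x ≠ 0) {e : O Q}
    (he : e ∈ M) (h1 : ∀ z ∈ A, e z ∈ A) {s : F} (hs : e x = s • x) :
    ∀ z ∈ A, (e ^ finrank F K) z = s ^ finrank F K • z := by
  obtain ⟨φ, θ, -, -, h3, h4⟩ := h.exists_aut hA hx h0 he h1 hs
  have : ∀ (n : ℕ) k, (e ^ n) (φ k) = s ^ n • φ ((θ ^ n) k) := fun n k => by
    induction n with
    | zero => simp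
    | succ n ih => rw [pow_succ', O.mul_apply, ih, map_smul, h4, smul_smul, pow_succ, pow_succ']; rfl
  intro z hz
  obtain ⟨a, rfl⟩ := h3 z hz
  rw [this, aut_pow_finrank]; rfl

theorem smul_of_cubic (h : Ctx3c Q q c M) (hA : Mem q M A) (hx : x ∈ A) (h0 : x ≠ 0) {e : O Q}
    (he : e ∈ M) (h1 : ∀ z ∈ A, e z ∈ A) {s : F} (hs : e x = s • x) {a b d : F} (hb : b ≠ 0)
    (h2 : ∀ v, a • v + b • e v + d • e (e v) + e (e (e v)) = 0) : ∀ z ∈ A, e z = s • z := by
  obtain ⟨φ, θ, h5, -, h3, h4⟩ := h.exists_aut hA hx h0 he h1 hs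
  have hs0 : s ≠ 0 := by rintro rfl; simp [h0] at hs
  obtain rfl := aut_eq_one_of_cubic h.r3 (θ := θ) (a := algebraMap F K a)
    (b := algebraMap F K (b * s)) (c := algebraMap F K (d * (s * s))) (d := algebraMap F K (s * s * s))
    (by simp [hs0, hb]) fun k => h5 (by
      simpa only [← Algebra.smul_def, map_add, map_smul, h4, smul_smul, map_zero] using h2 (φ k))
  intro z hz
  obtain ⟨a, rfl⟩ := h3 z hz
  exact h4 a

/-- distinct members meet in at most a point -/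
theorem uniq (h : Ctx3c Q q c M) (hA : Mem q M A) (hB : Mem q M B) (h0 : x ≠ 0) (hy' : y ∉ F ∙ x)
    (hx : x ∈ A) (hy : y ∈ A) (hx' : x ∈ B) (hy'' : y ∈ B) : A = B := by
  have : Finite F := Finite.of_injective _ (algebraMap F K).injective
  have : Fact (ringChar K).Prime := ⟨CharP.char_is_prime K _⟩
  obtain ⟨f, f1, f2, f3, -⟩ := h.exists_unip hA
  obtain ⟨f', g1, -, g3, -⟩ := h.exists_unip hB
  have hi : Function.Injective f := (injective_iff_map_eq_one f).2 fun k hk => by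
    by_contra e
    obtain ⟨v, hv⟩ := exists_mem_not_mem_of_finrank_lt (A := A) (B := ⊤) (by
      have := h.r3
      rw [hA.finrank, finrank_top, ← finrank_mul_finrank F K V, h.dim]; omega)
    exact hv.2 ((f3 k v (by simp [hk])).resolve_left e)
  have hp : ∀ k : Multiplicative K, k ^ ringChar K = 1 := fun k => by
    rw [← ofAdd_toAdd k, ← ofAdd_nsmul, nsmul_eq_mul, ringChar.Nat.cast_ringChar, zero_mul, ofAdd_zero]
  have := le_of_malnormal (p := ringChar K) (P := f.range) (H := M ⊓ fixer Q {x, y})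
    (by rintro _ ⟨k, rfl⟩; exact ⟨(f1 k).1, by simp [mem_fixer, (f1 k).2, hx, hy]⟩)
    (IsPGroup.of_surjective (fun k => ⟨1, by simpa using hp k⟩) _ f.rangeRestrict_surjective)
    (fun hc => by
      have := isCyclic_of_surjective _ (MonoidHom.ofInjective hi).symm.surjective
      have h1 := Monoid.exponent_dvd_of_forall_pow_eq_one hp
      rw [IsCyclic.exponent_eq_card] at h1
      exact absurd (Nat.le_of_dvd (Fact.out : (ringChar K).Prime).pos h1)
        (not_le.2 (char_lt_card h.hr.one_lt)))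
    (by
      rintro g ⟨hg, hg'⟩ _ ⟨a, rfl⟩ ha ⟨b, hb⟩
      have h2 := h.smul_of_two hA hx h0 hy hy' hg (fun z hz => (f3 b _ (by
        simp [hb, (f1 a).2 z hz])).resolve_left (by
          rintro rfl; exact ha (by simpa using hb.symm))) (s := 1)
        (by simp [hg' x (by simp)]) (by simp [hg' y (by simp)])
      obtain ⟨k, rfl⟩ := f2 g hg (by simpa using h2)
      exact ⟨k, rfl⟩)
  obtain ⟨k, hk⟩ := this (x := f' (Multiplicative.ofAdd 1))
    ⟨(g1 _).1, by simp [mem_fixer, (g1 _).2, hx', hy'']⟩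
  refine Submodule.eq_of_le_of_finrank_eq (fun z hz => (g3 _ z (hk ▸ (f1 k).2 z hz)).resolve_left ?_)
    (by rw [hA.finrank, hB.finrank])
  simp

theorem stab_of_two (h : Ctx3c Q q c M) (hA : Mem q M A) (h0 : x ≠ 0) (hy' : y ∉ F ∙ x) {e : O Q}
    (he : e ∈ M) (hx : x ∈ A) (hy : y ∈ A) (h1 : e x ∈ A) (h2 : e y ∈ A) : ∀ z ∈ A, e z ∈ A := by
  have := h.uniq (hA.img (M.inv_mem he)) hA h0 hy' (mem_img.2 (by simpa)) (mem_img.2 (by simpa)) hx hy
  exact fun z hz => by simpa using mem_img.1 (this.symm ▸ hz : z ∈ img e⁻¹ A)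

theorem sd (h : Ctx3c Q q c M) (h3 : (3 : K) = 0) (hA : Mem q M A) (h0 : x ≠ 0) (hx : x ∈ A) :
    Sd (M ⊓ fixer Q {x}) (M ⊓ fixer Q A) (M ⊓ fixer Q {x} ⊓ sstab Q A) := by
  obtain ⟨f, f1, f2, f3, -⟩ := h.exists_unip hA
  obtain ⟨φ, g1, g2, g3, g4⟩ := h.exists_aut' hA hx h0
  have hi : ∀ k, f k = 1 → k = 1 := fun k hk => by
    by_contra e
    obtain ⟨v, hv⟩ := exists_mem_not_mem_of_finrank_lt (A := A) (B := ⊤) (by
      have := h.r3
      rw [hA.finrank, finrank_top, ← finrank_mul_finrank F K V, h.dim]; omega)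
    exact hv.2 ((f3 k v (by simp [hk])).resolve_left e)
  refine ⟨fun g hg => ⟨hg.1, fun z hz => hz ▸ hg.2 x hx⟩, fun s hs u hu => ⟨M.mul_mem (M.mul_mem hs.1.1
    hu.1) (M.inv_mem hs.1.1), fun z hz => ?_⟩, fun g hg u hu h1 h2 => ⟨hg, mem_sstab_of_le fun z hz => ?_⟩,
    fun a ha b hb => ?_, fun a ha => ?_, fun s hs t ht => ?_, ?_⟩
  · simp [hu.2 _ (inv_apply_mem_of_sstab hs.2 hz)]
  · obtain ⟨k, hk⟩ := f2 _ h2.1 h2.2
    refine (f3 k _ (by simp [← hk, hu.2 z hz])).resolve_left ?_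
    rintro rfl
    exact h1 (by simpa using hk)
  · obtain ⟨k, rfl⟩ := f2 _ ha.1 ha.2
    obtain ⟨l, rfl⟩ := f2 _ hb.1 hb.2
    rw [← map_mul, mul_comm, map_mul]
  · obtain ⟨k, rfl⟩ := f2 _ ha.1 ha.2
    rw [← map_pow, ← ofAdd_toAdd k, ← ofAdd_nsmul, nsmul_eq_mul, Nat.cast_ofNat, h3]
    simp
  · obtain ⟨θ, hθ⟩ := g4 s hs.1.1 (fun z => apply_mem_of_sstab hs.2) 1 (by simp [hs.1.2 x rfl])
    obtain ⟨η, hη⟩ := g4 t ht.1.1 (fun z => apply_mem_of_sstab ht.2) 1 (by simp [ht.1.2 x rfl])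
    have key : ∀ e ∈ M, (∀ k, e (φ k) = φ k) → e ∈ M ⊓ fixer Q A := fun e he e1 => ⟨he, fun z hz => by
      obtain ⟨k, rfl⟩ := (g3 z).1 hz
      exact e1 k⟩
    refine (three_cases ((IsGalois.card_aut_eq_finrank F K).trans h.r3) θ η).imp
      (fun e => key s hs.1.1 (by simp [hθ, e])) (Or.imp (fun e => key t ht.1.1 (by simp [hη, e]))
      (Or.imp (fun e => key _ (M.mul_mem hs.1.1 ht.1.1) fun k => ?_)
        fun e => key _ (M.mul_mem hs.1.1 (M.inv_mem ht.1.1)) fun k => ?_))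
    · simp [hθ, hη, show θ (η k) = k from congrArg (· k) e]
    · obtain ⟨k, rfl⟩ := η.surjective k
      rw [O.mul_apply, (O.inv_apply_eq _).2 ((hη k).trans (one_smul F _)).symm, hθ, mul_inv_eq_one.1 e,
        one_smul]
  · obtain ⟨k, hk⟩ := exists_not_mem_bot (F := F) (K := K) (V := K) h.hr.one_lt
    have key : ∀ s : F, k ≠ algebraMap F K s := fun s e => hk s fun v => by rw [e, algebraMap_smul]
    refine ⟨f (.ofAdd k), f1 _, f (.ofAdd 1), f1 _, fun e => key 0 (by simpa using hi _ e),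
      fun e => by simpa using hi _ e, fun e => key (-1) ?_, fun e => key 1 ?_⟩
    · rw [← map_mul] at e
      simpa using eq_neg_of_add_eq_zero_left (hi _ e)
    · rw [← map_inv, ← map_mul] at e
      simpa using add_neg_eq_zero.1 (hi _ e)

/-- the pointwise stabiliser of a member acts freely on the other members through a point -/
theorem eq_of_fix (h : Ctx3c Q q c M) (hA : Mem q M A) (hB : Mem q M B) (h0 : x ≠ 0) (hx : x ∈ A)
    (hx' : x ∈ B) {e : O Q} (he : e ∈ M) (h1 : ∀ z ∈ A, e z = z) (h2 : ∀ z ∈ B, e z ∈ B)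
    (h3 : e ≠ 1) : A = B := by
  obtain ⟨f, -, f2, f3, f4⟩ := h.exists_unip hA
  have key : ∀ e ∈ M, (∀ z ∈ A, e z = z) → e ≠ 1 → (∀ z ∈ B, e z = z) → A = B := fun e he h1 h3 h4 => by
    obtain ⟨k, rfl⟩ := f2 e he h1
    exact (Submodule.eq_of_le_of_finrank_eq (fun z hz => (f3 k z (h4 z hz)).resolve_left
      (by rintro rfl; simp at h3)) (by rw [hA.finrank, hB.finrank])).symm
  by_cases h4 : (3 : F) = 0
  · have h5 : (3 : K) = 0 := by rw [← map_ofNat (algebraMap F K) 3, h4, map_zero]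
    by_contra hc
    exact (h.sd h5 hA h0 hx).false (h.sd h5 hB h0 hx')
      (fun g g1 g2 => by_contra fun g3 => hc (key g g1.1 g1.2 g3 g2.2)) ⟨he, h1⟩
      ⟨⟨he, fun z hz => hz ▸ h1 x hx⟩, mem_sstab_of_le h2⟩ h3
  refine key e he h1 h3 ?_
  obtain ⟨k, rfl⟩ := f2 e he h1
  simpa using h.smul_of_cubic hB hx' h0 he h2 (s := 1) (by simp [h1 x hx]) (a := -1) (b := 3) (d := -3)
    h4 fun v => by linear_combination (norm := module) f4 k v

end Ctx3c

end H84.OC
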