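/- Overgroups of `Ω₃(K)` for a cubic extension `K`: maximality of `O₃(q³)` in `Ω₉(q)` (after H91.OF3B). -/
import Cfsg.Agent.H84.OC1

set_option autoImplicit false
set_option linter.unusedSectionVars false

namespace H84.OC

open QuadraticMap H56 H60 H62 H91 Module

theorem count_contra {Q q n i j : ℕ} (hq : 3 ≤ q) (hQ : q ^ 3 ≤ Q)
    (h1 : n + (Q - 1) = j * Q) (h2 : 2 * n = i * (Q - 1)) (h3 : n * (Q - q) * q ≤ Q ^ 3) : False := by
  have h4 : 9 * q ≤ Q := by
    calc 9 * q = 3 ^ 2 * q := by norm_num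
      _ ≤ q ^ 2 * q := by gcongr
      _ ≤ Q := by rw [← pow_succ]; exact hQ
  obtain ⟨R, rfl⟩ : ∃ R, Q = R + 1 := ⟨Q - 1, by omega⟩
  obtain ⟨c, rfl⟩ : ∃ c, j = c + 1 := ⟨j - 1, by rcases j with _ | j <;> simp at h1 ⊢; omega⟩
  rw [Nat.add_sub_cancel] at h1 h2
  obtain rfl : n = 1 + c * (R + 1) := by nlinarith
  have h5 : R ≤ 2 + 2 * c := Nat.le_of_dvd (by omega)
    ((Nat.dvd_add_left (Dvd.intro_left (2 * c) rfl)).1 ⟨i, by nlinarith⟩)
  obtain ⟨S, hS⟩ : ∃ S, R + 1 = S + q := ⟨R + 1 - q, by omega⟩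
  rw [hS, Nat.add_sub_cancel] at h3
  have h6 : 8 * q ≤ S := by omega
  have h7 : S + q ≤ 3 + 2 * c := by omega
  have h8 : c * (S + q) * (S * 3) ≤ (S + q) ^ 3 := by
    calc _ ≤ (1 + c * (S + q)) * (S * q) := by gcongr; omega
      _ ≤ _ := by rw [← mul_assoc]; exact h3
  have h9 : c * (S * 3) ≤ (S + q) ^ 2 := Nat.le_of_mul_le_mul_left (by nlinarith) (by omega : 0 < S + q)
  obtain ⟨T, rfl⟩ : ∃ T, S = 8 * q + T := ⟨S - 8 * q, by omega⟩
  obtain ⟨p, rfl⟩ : ∃ p, q = 3 + p := ⟨q - 3, by omega⟩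
  nlinarith [Nat.mul_le_mul_right (8 * (3 + p) + T) h7, Nat.zero_le (p * T), Nat.zero_le (p * p),
    Nat.zero_le (T * T)]

variable {F K V : Type*} [Field F] [Field K] [Algebra F K] [AddCommGroup V] [Module F V]
  [Module K V] [IsScalarTower F K V] {Q : QuadraticForm F V} {q : QuadraticForm K V} {c : Dual F K}
  {M : Subgroup (O Q)} {w u v x y : V} {A B : Submodule F V}

variable [Finite K] [FiniteDimensional K V] [FiniteDimensional F V]

namespace Ctx3c

theorem no_perp (h : Ctx3c Q q c M) (hA : Mem q M A) (hB : Mem q M B) (hne : A ≠ B) (h0 : x ≠ 0)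
    (hx : x ∈ A) (hx' : x ∈ B) (hy : y ∈ B) (hy' : y ∈ perp Q A) : y ∈ A := by
  obtain ⟨g, hg, w, u, hu, rfl, rfl⟩ := h.std hA hx h0
  obtain ⟨y, rfl⟩ := g.surjective y
  rw [← img_perp, apply_mem_img, h.mem_perp_kl] at hy'
  by_contra hc
  obtain ⟨a, h1, h2⟩ := exists_pol_eq h.nd (mt apply_mem_img.2 hc) 1
  have he := M.mul_mem (M.mul_mem hg (h.eich_mem w a)) (M.inv_mem hg)
  have h3 : (g * h.res (eich q w a) * g⁻¹) (g y) = g y + g w := by
    simp [eich_apply_of_orth hu.qe h1 hy', h2]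
  have h4 : ∀ z ∈ img g (kl F K w), (g * h.res (eich q w a) * g⁻¹) z = z := fun z hz => by
    simp [Ctx.eich_fix hu.qe h1 (mem_img.1 hz)]
  refine hne (h.eq_of_fix hA hB h0 hx hx' he h4 (h.stab_of_two hB h0
    (fun e => hc ((Submodule.span_singleton_le_iff_mem _ _).2 hx e)) he hx' hy
    (by rwa [h4 _ hx]) (h3 ▸ B.add_mem hy hx')) fun e => h0 ?_)
  simpa [e] using h3

theorem not_neg (h : Ctx3c Q q c M) (hA : Mem q M A) (hB : Mem q M B) (hne : A ≠ B) (h0 : x ≠ 0)
    (hx : x ∈ A) (hx' : x ∈ B) {e : O Q} (he : e ∈ M) (h1 : ∀ z ∈ A, e z = -z)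
    (h2 : ∀ z ∈ B, e z = -z) : False := by
  wlog hw : ∃ u, IsHyp q x u ∧ A = kl F K x generalizing x A B e
  · obtain ⟨g, hg, w, u, hu, rfl, rfl⟩ := h.std hA hx h0
    refine this (Mem.kl hu.ne_zero hu.qe) (hB.img (M.inv_mem hg)) (fun e => hne ?_) hu.ne_zero
      (self_mem_kl w) (mem_img.2 (by simpa)) (M.mul_mem (M.mul_mem (M.inv_mem hg) he) hg)
      (fun z hz => by simp [h1 _ (apply_mem_img.2 hz)])
      (fun z hz => by simp [h2 (g z) (by simpa using mem_img.1 hz)]) ⟨u, hu, rfl⟩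
    rw [e, ← img_mul, mul_inv_cancel, img_one]
  obtain ⟨u, hu, rfl⟩ := hw
  obtain ⟨z, hz, hz'⟩ : ∃ z ∈ B, z ∉ kl F K x := by
    by_contra! hc
    exact hne (Submodule.eq_of_le_of_finrank_eq hc (by rw [hA.finrank, hB.finrank])).symm
  have h3 : polar q x z ≠ 0 := fun e => hz' (h.no_perp hA hB hne h0 hx hx' hz (h.mem_perp_kl.2 e))
  obtain ⟨u, hu, a, ha⟩ := Ctx.hyp_of_ne hu.qe h3
  obtain ⟨y, y1, y2, y3⟩ := hu.exists_perp_Q_ne h.nd h.h3
  have y4 : polar q y z = 0 := by rw [ha]; simp [pc y1, pc y2]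
  have y5 : ∀ k : K, polar q x (k • y) = 0 := fun k => by simp [y1]
  have y6 : ∀ k : K, eich q x (k • y) z = z - (k * polar q x z) • y - (k * k * q y * polar q x z) • x :=
    fun k => by rw [eich_apply hu.qe (y5 k), polar_smul_left, y4, Q_smul]; module
  have h4 : ∀ v ∈ B, polar q y v = 0 := fun v hv => h.zero_of fun k => by
    have e1 : ∀ k : K, e (k • x) = -(k • x) := fun k => h1 _ (smul_mem_kl k x)
    obtain ⟨y', h5, h6⟩ := h.conj_eq_eich hu (h.z0 x u hu) he
      (fun k => e1 k ▸ neg_mem (smul_mem_kl k x)) (y5 (k / polar q x z))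
    obtain ⟨b, hb⟩ := exists_smul_of_orth h.nd (x := x) (z := y' + (k / polar q x z) • y) fun t ht => by
      obtain ⟨d, hd⟩ := mem_kl.1 (h.act_W hu he (Or.inr rfl) (by simpa using e1) t ht)
      have := h6 t
      rw [eich_apply_of_orth hu.qe (y5 _) ht, map_add, e1, eich_apply_of_orth hu.qe h5 (by
        rw [eq_add_of_sub_eq hd.symm]; simp [ht, hu.ee]), add_right_inj, ← neg_smul,
        eq_add_of_sub_eq hd.symm] at this
      have := smul_left_injective K h0 this
      simp only [polar_add_right, polar_smul_right, pc h5, smul_zero, zero_add] at this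
      rw [polar_add_left, ← this, neg_add_cancel]
    have h7 := e.map_polar v (eich q x ((k / polar q x z) • y) z)
    rw [h6, eq_sub_of_add_eq hb, sub_eq_neg_add, eich_add_smul_self _ hu.qe (by simp [y1]), ← neg_smul,
      h2 v hv, h2 z hz, map_neg, y6, y6] at h7
    simp only [polar_neg_left, polar_neg_right, neg_neg, polar_sub_right, neg_mul, mul_neg, neg_smul,
      div_mul_cancel₀ _ h3] at h7
    rw [← h.pol_smul, polar_comm]
    exact (mul_eq_zero.1 (by linear_combination h7)).resolve_left h.two'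
  obtain ⟨s, k, hs, hk, h5⟩ := exists_eq_mul_sq h.hr (by have := h.r3; omega) h.two'
    (inv_ne_zero (mul_ne_zero y3 h3))
  have h6 : h.res (eich q x (k • y)) z = z - s⁻¹ • x - (k * polar q x z) • y := by
    rw [TrQ.res_apply, y6, mul_assoc (k * k), ← inv_inv (q y * _), h5, smul_inv₀, mul_smul_comm,
      mul_inv_cancel₀ (mul_ne_zero hk hk), smul_one_smul]
    abel
  have h7 : h.res (eich q x (k • y)) z ∉ B := fun e => by
    rw [h6, B.sub_mem_iff_right (B.sub_mem hz (B.smul_mem _ hx'))] at e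
    simpa [h.two, y3, hk, h3] using h4 _ e
  refine h7 (h.no_perp hB (hB.img (h.eich_mem x (k • y))) (fun e => h7 (e ▸ apply_mem_img.2 hz)) h0 hx'
    (mem_img.2 (by rwa [← map_inv, TrQ.res_apply, (O.inv_apply_eq _).2 (eich_apply_self hu.qe (y5 k)).symm]))
    (apply_mem_img.2 hz) (mem_perp.2 fun v hv => ?_))
  rw [h6, polar_sub_right, polar_eq_zero_of_ts (hB.ts h.toTrQ) v hv _ (B.sub_mem hz (B.smul_mem _ hx')),
    polar_comm, h.pol_smul, h4 v hv]
  simp

theorem unip_fix (h : Ctx3c Q q c M) (h0 : x ≠ 0) (A : Thru q M x) :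
    ∃ f : Multiplicative K →* Stb M x, (∀ k, (f k).1 x = x) ∧
      ∀ k, k ≠ 1 → ∀ B, f k • B = B ↔ B = A := by
  obtain ⟨f, f1, -, f3, -⟩ := h.exists_unip A.2.1
  refine ⟨f.codRestrict _ fun k => mem_Stb (f1 k).1 (s := 1) (by simp [(f1 k).2 x A.2.2]),
    fun k => (f1 k).2 x A.2.2, fun k hk B => smul_thru_iff.trans ⟨fun h1 => Subtype.ext
      (h.eq_of_fix A.2.1 B.2.1 h0 A.2.2 B.2.2 (f1 k).1 (f1 k).2 h1 fun e => ?_).symm, ?_⟩⟩
  · obtain ⟨v, hv⟩ := exists_mem_not_mem_of_finrank_lt (A := A.1) (B := ⊤) (by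
      have := h.r3
      rw [A.2.1.finrank, finrank_top, ← finrank_mul_finrank F K V, h.dim]; omega)
    exact hv.2 ((f3 k v (by simp [e])).resolve_left hk)
  · rintro rfl z hz
    exact ((f1 k).2 z hz).symm ▸ hz

theorem trans (h : Ctx3c Q q c M) (h0 : x ≠ 0) (A B : Thru q M x) :
    ∃ g : Stb M x, g.1 x = x ∧ g • A = B := by
  have := finite_thru (q := q) (M := M) (x := x)
  have : Fact (ringChar K).Prime := ⟨CharP.char_is_prime K _⟩
  obtain ⟨g, hg⟩ := gleason (H := (fixer Q {x}).subgroupOf (Stb M x)) (p := ringChar K) (fun A => by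
    obtain ⟨f, f1, f2⟩ := h.unip_fix h0 A
    refine ⟨⟨f (Multiplicative.ofAdd 1), fun z hz => by rw [hz]; exact f1 _⟩, Subtype.ext ?_,
      f2 _ (by simp)⟩
    rw [SubgroupClass.coe_pow, ← map_pow, ← ofAdd_nsmul]
    simp) A B
  exact ⟨g, g.2 x rfl, hg⟩

theorem card_le (h : Ctx3c Q q c M) (h0 : x ≠ 0) :
    Nat.card (Thru q M x) * (Nat.card K - Nat.card F) * Nat.card F ≤ Nat.card K ^ 3 := by
  have := finite_thru (q := q) (M := M) (x := x)
  have := Fintype.ofFinite (Thru q M x)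
  have : Finite V := Module.finite_of_finite K
  have : Finite F := Finite.of_injective _ (algebraMap F K).injective
  have := h.fd
  have h1 := Nat.card_le_card_of_injective (fun t : Σ L : Thru q M x,
    ↥((L.1 : Set V) \ (F ∙ x : Submodule F V)) => (⟨t.2, polar_eq_zero_of_ts (t.1.2.1.ts h.toTrQ) x
      t.1.2.2 _ t.2.2.1⟩ : ort Q x)) (by
    rintro ⟨A, y, hy⟩ ⟨B, z, hz⟩ e
    obtain rfl : y = z := congrArg Subtype.val e
    obtain rfl : A = B := Subtype.ext (h.uniq A.2.1 B.2.1 h0 hy.2 A.2.2 hy.1 B.2.2 hz.1)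
    rfl)
  rw [Nat.card_sigma, Finset.sum_congr rfl (g := fun _ => Nat.card K - Nat.card F) fun L _ => by
    rw [Nat.card_coe_set_eq, Set.ncard_sdiff ((Submodule.span_singleton_le_iff_mem _ _).2 L.2.2),
      ← Nat.card_coe_set_eq, ← Nat.card_coe_set_eq, SetLike.coe_sort_coe, SetLike.coe_sort_coe,
      Module.natCard_eq_pow_finrank (K := F), Module.natCard_eq_pow_finrank (K := F) (V := F ∙ x),
      L.2.1.finrank, finrank_span_singleton h0, pow_one, ← Module.natCard_eq_pow_finrank]] at h1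
  obtain ⟨y, hy⟩ := exists_polar_ne_zero h.nondeg h0
  have h2 := Submodule.finrank_lt_finrank_of_lt (lt_top_iff_ne_top.2 fun e : ort Q x = ⊤ =>
    hy (mem_ort.1 (e ▸ Submodule.mem_top)))
  rw [finrank_top, ← finrank_mul_finrank F K V, h.dim] at h2
  calc _ ≤ Nat.card (ort Q x) * Nat.card F := by
        gcongr; simpa [Nat.card_eq_fintype_card] using h1
    _ ≤ _ := by
        rw [Module.natCard_eq_pow_finrank (K := F), Module.natCard_eq_pow_finrank (K := F) (V := K),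
          ← pow_succ, ← pow_mul]
        exact Nat.pow_le_pow_right Nat.card_pos h2

theorem mem_kl_of_orth (h : Ctx3c Q q c M) (hx : q x ≠ 0) {a b : V} (ha : polar q a x = 0)
    (hb : polar q b x = 0) (h1 : ∃ y, polar q x y = 0 ∧ polar q a y ≠ 0)
    (h2 : ∃ y, polar q x y = 0 ∧ polar q a y = 0 ∧ polar q b y ≠ 0) (h3 : polar q a v = 0)
    (h4 : polar q b v = 0) : v ∈ kl F K x := by
  have h5 : 2 * q x ≠ 0 := mul_ne_zero h.two hx
  exact mem_kl.2 ⟨polar q x v / (2 * q x), (sub_eq_zero.1 (eq_zero_of_three h.toTrQ h.dim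
    ⟨x, by rwa [polar_self']⟩ h1 h2 (by simp [h5]) (by simp [ha, h3]) (by simp [hb, h4]))).symm⟩

/-- the perp of a non-singular vector on a member is anisotropic -/
theorem not_plus (h : Ctx3c Q q c M) (hA : Mem q M A) (hx : x ∈ A) (hq : q x ≠ 0) (hw0 : w ≠ 0)
    (hw : q w = 0) (hwx : polar q x w = 0) : False := by
  classical
  have : Finite F := Finite.of_injective _ (algebraMap F K).injective
  have := finite_thru (q := q) (M := M) (x := x)
  have := Fintype.ofFinite K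
  have h0 : x ≠ 0 := by rintro rfl; simp at hq
  obtain ⟨u, hux, h1, h2⟩ := (Ctx.nondeg_ort h.toTrQ hq).exists_partner ⟨trivial, hwx⟩ hw0 hw
  have hu : IsHyp q w u := ⟨hw, h1, h2⟩
  have h3 : ∀ a : K, a ≠ 0 → a ≠ 1 → ∀ B, Mem q M B → ¬ ∀ z ∈ B, tor q w u a z = z := fun a ha h3 B hB h4 => by
    obtain ⟨n, hn, hn'⟩ := Ctx.not_le_kl h.toTrQ hB.finrank (hB.ts h.toTrQ) hq
    have h5 := h4 n hn
    rw [tor_apply hu ha] at h5
    refine hn' (h.mem_kl_of_orth hq (pc hwx) (pc hux.2) ⟨u, hux.2, by simp [h2]⟩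
      ⟨w, hwx, hu.ee, by simp [hu.fe]⟩ ?_ ?_)
    · simpa [hu.ee, hu.ef, sub_eq_zero, h3] using congrArg (polar q w) h5
    · simpa [hu.ff, hu.fe, sub_eq_zero, h3] using congrArg (polar q u) h5
  let t₀ : Kˣ →* O q :=
    { toFun := fun k => tor q w u k
      map_one' := tor_one
      map_mul' := fun a b => (tor_mul hu a.ne_zero b.ne_zero).symm }
  have hM : ∀ k : Kˣ, h.res (t₀ (k ^ 2)) ∈ M := fun k => by
    simpa [t₀, pow_two] using h.tor_mem hu k.ne_zero
  have hx' : ∀ k : Kˣ, h.res (t₀ k) x = (1 : F) • x := fun k =>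
    (tor_apply_of_orth (pc hwx) (pc hux.2)).trans (one_smul F x).symm
  let t : Kˣ →* Stb M x := (h.res.comp (t₀.comp (powMonoidHom 2))).codRestrict _
    fun k => mem_Stb (hM k) (hx' _)
  have h4 : ∀ k : Kˣ, k ≠ 1 ∧ k ≠ -1 → ∀ B : Thru q M x, t k • B ≠ B := fun k hk B e => by
    have h5 : ∀ z ∈ B.1, h.res (t₀ (k ^ 2)) z ∈ B.1 := smul_thru_iff.1 e
    have h6 := h.pow_eq_smul B.2.1 B.2.2 h0 (hM k) h5 (hx' _)
    rw [← map_pow, ← map_pow] at h6
    have h10 : ((k ^ 2 : Kˣ) : K) ^ finrank F K = 1 := by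
      by_contra h7
      exact h3 _ ((k ^ 2) ^ finrank F K).ne_zero (by simpa using h7) B B.2.1
        fun z hz => (h6 z hz).trans (by simp)
    obtain ⟨s, hs⟩ := mem_range_of_pow h.hr h10
    have h7 : ((k ^ 2 : Kˣ) : K) ≠ 1 := by simpa using hk
    have h8 : ∀ v ∈ B.1, tor q w u (algebraMap F K s) v ∈ B.1 := hs ▸ h5
    refine h3 _ (k ^ 2).ne_zero h7 B B.2.1 fun z hz => ?_
    have h9 := (k ^ 2).ne_zero
    rw [← hs] at h7 h9 h10 ⊢
    have key : ∀ w, w ≠ 0 → q w = 0 → polar q x w = 0 → ∀ a : K, a • w ∈ B.1 → a = 0 :=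
      fun w w0 w1 w2 a ha => by_contra fun a0 => by
        have : x ∈ kl F K w := (em (kl F K w = B.1)).elim (fun e => e ▸ B.2.2) fun e =>
          h.no_perp (Mem.kl w0 w1) B.2.1 e (smul_ne_zero a0 w0) (smul_mem_kl a w) ha B.2.2
            (h.mem_perp_kl.2 (pc w2))
        obtain ⟨b, rfl⟩ := mem_kl.1 this
        simp [Q_smul, w1] at hq
    have h11 := B.1.sub_mem (h8 z hz) hz
    have h12 : algebraMap F K s * algebraMap F K s - 1 ≠ 0 := fun e => h7 (by
      rw [h.r3] at h10; linear_combination h10 - algebraMap F K s * e)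
    have e1 := key w hw0 hw hwx ((algebraMap F K s * algebraMap F K s - 1) * (algebraMap F K s - 1) *
      polar q u z) (by
        convert B.1.sub_mem (B.1.smul_mem s (h8 _ h11)) h11 using 1
        simp only [tor_apply hu h9, ← algebraMap_smul K s, polar_add_right, polar_sub_right,
          polar_smul_right, hu.ee, hu.ff, hu.ef, hu.fe, smul_eq_mul]
        match_scalars <;> field_simp <;> ring)
    have e2 := key u hu.symm.ne_zero h1 hux.2 ((algebraMap F K s * algebraMap F K s - 1) *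
      (algebraMap F K s - 1) * (algebraMap F K s)⁻¹ * (algebraMap F K s)⁻¹ * polar q w z) (by
        convert B.1.sub_mem (h8 _ h11) (B.1.smul_mem s h11) using 1
        simp only [tor_apply hu h9, ← algebraMap_smul K s, polar_add_right, polar_sub_right,
          polar_smul_right, hu.ee, hu.ff, hu.ef, hu.fe, smul_eq_mul]
        match_scalars <;> field_simp <;> ring)
    simp only [mul_eq_zero, h12, sub_eq_zero, h7, inv_eq_zero, h9, false_or] at e1 e2
    exact tor_apply_of_orth e2 e1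
  obtain ⟨f, -, f2⟩ := h.unip_fix h0 ⟨A, hA, hx⟩
  letI := MulAction.compHom (Thru q M x) t
  letI := MulAction.compHom (Thru q M x) f
  obtain ⟨i, hi⟩ := exists_sum_fixedBy Kˣ (Thru q M x)
  obtain ⟨j, hj⟩ := exists_sum_fixedBy (Multiplicative K) (Thru q M x)
  have h5 : t (-1) = 1 := Subtype.ext (by simp [t])
  rw [Fintype.sum_eq_add 1 (-1) (fun e => h.two (by
      have := congrArg Units.val e
      simp only [Units.val_one, Units.val_neg] at this
      linear_combination this)) fun k hk => by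
    rw [show MulAction.fixedBy (Thru q M x) k = ∅ from Set.eq_empty_of_forall_notMem (h4 k hk)]; simp,
    show MulAction.fixedBy (Thru q M x) (-1 : Kˣ) = Set.univ from Set.eq_univ_of_forall fun B => by
      change t (-1) • B = B
      rw [h5, one_smul], Nat.card_units] at hi
  rw [← Finset.add_sum_erase _ _ (Finset.mem_univ 1), Finset.sum_congr rfl (g := fun _ => 1)
    fun k hk => by
      rw [show MulAction.fixedBy (Thru q M x) k = {⟨A, hA, hx⟩} from
        Set.ext (f2 k (Finset.ne_of_mem_erase hk))]; simp] at hj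
  refine count_contra (q := Nat.card F) (i := i) (j := j) ?_ ?_ (by simpa using hj)
    (by simpa [two_mul] using hi) (h.card_le h0)
  · have := Fintype.ofFinite F
    have h6 := FiniteField.odd_card_of_char_ne_two (ringChar_ne_two_of_two_ne h.two')
    have := Fintype.one_lt_card (α := F)
    rw [Nat.card_eq_fintype_card]; omega
  · rw [Module.natCard_eq_pow_finrank (K := F) (V := K)]
    exact Nat.pow_le_pow_right Nat.card_pos h.r3.ge

theorem not_minus (h : Ctx3c Q q c M) (hA : Mem q M A) (hx : x ∈ A) (hq : q x ≠ 0) {a b : V}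
    (ha : q a ≠ 0) (hb : q b ≠ 0) (hxa : polar q x a = 0) (hxb : polar q x b = 0)
    (hab : polar q a b = 0) (hs : IsSquare (q a * q b)) : False := by
  have := finite_thru (q := q) (M := M) (x := x)
  have : Fact (ringChar K).Prime := ⟨CharP.char_is_prime K _⟩
  have h0 : x ≠ 0 := by rintro rfl; simp at hq
  have h1 := h.mem _ (H56.refl_mul_refl_mem_commutator h.nd ha hb ((sqcl_eq_iff_isSquare_mul ha hb).2 hs))
  have h2 : ∀ v, (refl q a * refl q b) v =
      v - ((q a)⁻¹ * polar q a v) • a - ((q b)⁻¹ * polar q b v) • b := fun v => by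
    simp [refl_apply, hab]; abel
  have h3 : ∀ v, h.res (refl q a * refl q b) (h.res (refl q a * refl q b) v) = v := fun v => by
    simp only [TrQ.res_apply, h2, polar_sub_right, polar_smul_right, hab, pc hab, polar_self', smul_eq_mul]
    match_scalars <;> field_simp <;> ring
  have h4 : h.res (refl q a * refl q b) x = (1 : F) • x := by
    rw [TrQ.res_apply, h2]; simp [pc hxa, pc hxb]
  have h5 : ∀ B : Thru q M x, (⟨_, mem_Stb h1 h4⟩ : Stb M x) • B ≠ B := fun B e => by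
    obtain ⟨n, hn, hn'⟩ := Ctx.not_le_kl h.toTrQ B.2.1.finrank (B.2.1.ts h.toTrQ) hq
    have := h.smul_of_cubic B.2.1 B.2.2 h0 h1 (smul_thru_iff.1 e) h4 (a := 0) (b := -1) (d := 0)
      (by simp) (fun v => by rw [h3]; simp) n hn
    rw [TrQ.res_apply, h2, one_smul] at this
    refine hn' (h.mem_kl_of_orth hq (pc hxa) (pc hxb) ⟨a, hxa, by simp [h.two, ha]⟩
      ⟨b, hxb, hab, by simp [h.two, hb]⟩ ?_ ?_)
    · simpa [hab, ha, h.two] using congrArg (polar q a) this
    · simpa [pc hab, hb, h.two] using congrArg (polar q b) this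
  obtain ⟨d, hd, hqd⟩ := (Ctx.nondeg_ort h.toTrQ hq).exists_Q_eq (by
    have := finrank_le_inf_ort (Q := q) ⊤ x
    rw [finrank_top, h.dim] at this; omega) hq
  have h6 := h.mem _ (H56.refl_mul_refl_mem_commutator h.nd hq (hqd ▸ hq) (by rw [hqd]))
  have h7 : h.res (refl q x * refl q d) x = (-1 : F) • x := by
    simp [refl_apply_of_orth (pc hd.2), refl_apply_self hq]
  obtain ⟨g, h8, h9⟩ := h.trans h0 ((⟨_, mem_Stb h6 h7⟩ : Stb M x) • ⟨A, hA, hx⟩) ⟨A, hA, hx⟩
  rw [← mul_smul] at h9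
  set e := g * ⟨_, mem_Stb h6 h7⟩ with he
  have e1 : ∀ z ∈ A, (e ^ finrank F K).1 z = -z := by
    simpa [h.odd.neg_one_pow] using h.pow_eq_smul hA hx h0 e.2.1 (smul_thru_iff.1 h9) (s := -1)
      (by rw [he, Subgroup.coe_mul, O.mul_apply, h7, map_smul, h8])
  generalize e ^ finrank F K = e' at e1
  obtain ⟨f, -, f2, -⟩ := h.exists_unip hA
  obtain ⟨k, hk⟩ := f2 (e' ^ 2).1 (e' ^ 2).2.1 fun z hz => by simp [pow_two, e1 z hz]
  have e2 : (e' ^ ringChar K) ^ 2 = 1 := Subtype.ext (by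
    rw [← pow_mul, mul_comm, pow_mul, SubgroupClass.coe_pow, hk, ← map_pow, ← ofAdd_toAdd k,
      ← ofAdd_nsmul]
    simp)
  have e3 : ∀ z ∈ A, (e' ^ ringChar K).1 z = -z := fun z hz => by
    have : ∀ n : ℕ, (e' ^ n).1 z = (-1 : F) ^ n • z := fun n => by
      induction n with
      | zero => simp
      | succ n ih => rw [pow_succ', Subgroup.coe_mul, O.mul_apply, ih, map_smul, e1 z hz, pow_succ]; simp
    rw [this, ((Fact.out : (ringChar K).Prime).odd_of_ne_two
      (ringChar_ne_two_of_two_ne h.two)).neg_one_pow, neg_one_smul]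
  generalize e' ^ ringChar K = v at e2 e3
  obtain ⟨B, h10, h11⟩ := exists_fixed_ne (t := ⟨_, mem_Stb h1 h4⟩)
    (Subtype.ext (O.ext fun v => by simpa [pow_two] using h3 v)) h5 e2 (a := ⟨A, hA, hx⟩)
    (smul_thru_iff.2 fun z hz => e3 z hz ▸ neg_mem hz)
  refine h.not_neg hA B.2.1 (fun e => h11 (Subtype.ext e.symm)) h0 hx B.2.2 v.2.1 e3 ?_
  simpa using h.smul_of_cubic B.2.1 B.2.2 h0 v.2.1 (smul_thru_iff.1 h10) (s := -1)
    (by simp [e3 x hx]) (a := 0) (b := -1) (d := 0) (by simp) fun y => by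
      simp [show v.1 (v.1 y) = y by simpa [pow_two] using congrArg (fun g : Stb M x => g.1 y) e2]

theorem not_MP (h : Ctx3c Q q c M) (hp : MP q M A B) : False := by
  obtain ⟨x, hx, h0⟩ := Submodule.exists_mem_ne_zero_of_ne_bot hp.pos
  obtain ⟨g, hg, w, u, hu, rfl, rfl⟩ := h.std hp.left hx.1 h0
  replace hp := hp.img (M.inv_mem hg)
  have hw : w ∈ img g⁻¹ B := mem_img.2 (by simpa using hx.2)
  rw [img_inv_img] at hp
  generalize img g⁻¹ B = L at hp hw
  obtain ⟨z, hz, hz'⟩ := hp.exists_notMem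
  have h3 : polar q w z ≠ 0 := fun e => hz' (h.no_perp hp.left hp.right hp.ne hu.ne_zero
    (self_mem_kl w) hw hz (h.mem_perp_kl.2 e))
  by_cases hs : IsSquare (-1 : K)
  · obtain ⟨u, hu, a, ha⟩ := Ctx.hyp_of_ne hu.qe h3
    obtain ⟨i, hi⟩ := hs
    have h1 := h.tor_mem hu (k := i) (by rintro rfl; simp at hi)
    rw [← hi] at h1
    have h2 : h.res (tor q w u (-1)) w = (-1 : F) • w := by simp [tor_apply_e hu]
    have h4 : h.res (tor q w u (-1)) z = (-1 : F) • z := by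
      rw [ha]; simp [tor_apply_e hu, tor_apply_f hu, add_comm]
    have h5 : z ∉ F ∙ w := fun e => hz' ((Submodule.span_singleton_le_iff_mem _ _).2 (self_mem_kl w) e)
    refine h.not_neg hp.left hp.right hp.ne hu.ne_zero (self_mem_kl w) hw h1 (fun v hv => ?_) ?_
    · obtain ⟨k, rfl⟩ := mem_kl.1 hv
      simp [tor_apply_e hu]
    · simpa using h.smul_of_two hp.right hw hu.ne_zero hz h5 h1 (h.stab_of_two hp.right hu.ne_zero h5 h1
        hw hz (h2 ▸ L.smul_mem _ hw) (h4 ▸ L.smul_mem _ hz)) h2 h4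
  obtain ⟨x, hx, hq⟩ : ∃ x ∈ L, q x ≠ 0 := by
    by_contra! hc
    exact h3 (by simpa [Q_add, hu.qe, hc z hz] using hc _ (L.add_mem hw hz))
  have hU := Ctx.nondeg_ort h.toTrQ hq
  have h4 := finrank_le_inf_ort (Q := q) ⊤ x
  rw [finrank_top, h.dim] at h4
  obtain ⟨a, ha, hqa⟩ := hU.exists_Q_ne fun e => by rw [e, finrank_bot] at h4; omega
  obtain ⟨b, hb, hqb⟩ := (hU.inf_ort ha (by simp [h.two, hqa])).exists_Q_ne fun e => by
    have := finrank_le_inf_ort (Q := q) (⊤ ⊓ ort q x) a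
    rw [e, finrank_bot] at this; omega
  have hab : polar q a b = 0 := hb.2
  by_cases h5 : IsSquare (-(q a * q b))
  · obtain ⟨d, hd⟩ := h5
    refine h.not_plus hp.right hx hq (w := d • a + q a • b) (fun e => ?_) ?_ ?_
    · simpa [pc hab, h.two, hqa, hqb] using congrArg (polar q b) e
    · simp only [Q_add, Q_smul, ← hd, polar_smul_left, polar_smul_right, hab, smul_zero]; ring
    · simp [show polar q x a = 0 from ha.2, show polar q x b = 0 from hb.1.2]
  · exact h.not_minus hp.right hx hq hqa hqb ha.2 hb.1.2 hab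
      (by simpa using isSquare_mul_of_not_isSquare hs h5)

end Ctx3c

theorem le_of_cubic (h : Ctx Q q c M) (h3 : finrank K V = 3) (h5 : finrank F K = 3)
    (hM : M ≤ commutator (O Q)) (hp : MP q M A B) : commutator (O Q) ≤ M := by
  have : Finite F := Finite.of_injective _ (algebraMap F K).injective
  by_contra hc
  refine Ctx3c.not_MP ⟨h, h3, h5, fun g hg =>
    ((mem_commutator_iff_of_two_ne h.nondeg h.two' g).1 (hM hg)).1, fun w u hu => ?_⟩ hp
  refine (h.z0_or M hu).resolve_right ?_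
  rintro ⟨ζ, h1, h2⟩
  exact hc (h.le_of_Z (by omega) hu h1 h2 hp)

open Matrix Cfsg Cfsg.Geo in
/-- the normaliser of a self-adjoint cubic field in `Ω₉(q)` -/
theorem isMaximalIn_o_field_cubic {ι : Type} [Fintype ι] [DecidableEq ι] {F : Type*} [Field F]
    [Finite F] {Q : QuadraticForm F (ι → F)} (hQ : Q.polarBilin.Nondegenerate)
    (h2 : (2 : F) ≠ 0) (h9 : Fintype.card ι = 9)
    {K : Subalgebra F (Matrix ι ι F)} (hK : IsFieldSubalgebra 3 K)
    (hsa : IsSelfAdjointFor (polar ⇑Q) K) :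
    IsMaximalIn (omegaGL ⇑Q) (subalgebraNormalizer K ⊓ omegaGL ⇑Q) :=
  isMaximalIn_o_field_of hQ h2 Nat.prime_three (by omega) hK hsa
    fun K _ _ _ _ _ _ q c M h0 h1 h hM g hg hn => by
      obtain ⟨A, B, hp⟩ := h.exists_MP (fun _ => by omega) hg hn
      exact le_of_cubic h (by omega) h0 hM hp

/-- item (5) of S5834 -/
theorem omega9_cubic {F : Type*} [Field F] [Fintype F] (hodd : Odd (Fintype.card F)) :
    ∀ K : Subalgebra F (Matrix (Unit ⊕ (Fin 4 ⊕ Fin 4)) (Unit ⊕ (Fin 4 ⊕ Fin 4)) F), Cfsg.Geo.IsFieldSubalgebra 3 K → Cfsg.Geo.IsSelfAdjointFor (QuadraticMap.polar (Cfsg.quadFormOdd 4 F)) K → Cfsg.Geo.IsMaximalIn (Cfsg.Geo.omegaGL (Cfsg.quadFormOdd 4 F)) (Cfsg.Geo.subalgebraNormalizer K ⊓ Cfsg.Geo.omegaGL (Cfsg.quadFormOdd 4 F)) := by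
  intro K hK hsa
  obtain ⟨Q, e, hQ⟩ := H60.exists_qOdd hodd 4
  rw [← e] at hsa ⊢
  exact isMaximalIn_o_field_cubic hQ (H91.two_ne_zero_of_odd hodd) (by simp) hK hsa

end H84.OC
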