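import Cfsg.Agent.H97.QPSpec
import Cfsg.Agent.H32.SmallKill

/-! Quasithin tower, phase 2 (blueprints/QP.md, section NA): the noncommuting configuration. -/

set_option autoImplicit false

namespace H84.QPNA

open Cfsg Subgroup H98 H97 H97.NG H97.QP H32.NP H12
open scoped commutatorElement

universe u

variable {G : Type*} [Group G]

section four

variable {W Q : Subgroup G} {a b w q : G}

theorem fpf_eq (hf : W ⊓ centralizer ({a} : Set G) = ⊥) (hw : w ∈ W) (e : a * w = w * a) :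
    w = 1 := mem_bot.1 (hf ▸ ⟨hw, mem_centralizer_singleton_iff.2 e.symm⟩)

theorem rot (h : Four W) (ha : a ∈ normalizer (W : Set G))
    (hf : W ⊓ centralizer ({a} : Set G) = ⊥) (hw : w ∈ W) :
    a * (a * w * a⁻¹) * a⁻¹ = w * (a * w * a⁻¹) := by
  have fx : ∀ v ∈ W, a * v * a⁻¹ = v → v = 1 := fun v hv e =>
    fpf_eq hf hv (mul_inv_eq_iff_eq_mul.1 e)
  by_cases w1 : w = 1
  · simp [w1]
  have hu := conj_mem_of_mem_normalizer ha hw
  have u1 : a * w * a⁻¹ ≠ 1 := by simpa [mul_inv_eq_one] using w1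
  have uw : w ≠ a * w * a⁻¹ := fun e => w1 (fx w hw e.symm)
  rcases f_cases h hw hu w1 u1 uw (conj_mem_of_mem_normalizer ha hu) with e | e | e | e
  · exact absurd (by simpa [mul_inv_eq_one] using e) w1
  · refine absurd (fx _ (mul_mem hw hu) ?_) (f_mul_ne_one h hw uw)
    calc a * (w * (a * w * a⁻¹)) * a⁻¹ = (a * w * a⁻¹) * (a * (a * w * a⁻¹) * a⁻¹) := by group
      _ = _ := by rw [e, f_comm h hu hw]
  · exact absurd (fx _ hu e) u1
  · exact e

/-- Two fixed-point-free elements act on a four-group in the same or in the inverse way. -/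
theorem two_rot (h : Four W) (ha : a ∈ normalizer (W : Set G))
    (hf : W ⊓ centralizer ({a} : Set G) = ⊥) (hb : b ∈ normalizer (W : Set G))
    (hg : W ⊓ centralizer ({b} : Set G) = ⊥) :
    a * b ∈ centralizer (W : Set G) ∨ a⁻¹ * b ∈ centralizer (W : Set G) := by
  obtain ⟨w, hw, w1, -⟩ := f_exists h 1
  have hu := conj_mem_of_mem_normalizer ha hw
  have u1 : a * w * a⁻¹ ≠ 1 := by simpa [mul_inv_eq_one] using w1
  have uw : w ≠ a * w * a⁻¹ := fun e => w1 (fpf_eq hf hw (mul_inv_eq_iff_eq_mul.1 e.symm))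
  have r1 := rot h ha hf hw
  have r2 := rot h hb hg hw
  rcases f_cases h hw hu w1 u1 uw (conj_mem_of_mem_normalizer hb hw) with e | e | e | e
  · exact absurd (by simpa [mul_inv_eq_one] using e) w1
  · exact absurd (fpf_eq hg hw (mul_inv_eq_iff_eq_mul.1 e)) w1
  · right
    rw [e, ← r1] at r2
    refine f_cent h hw w1 hu u1 uw.symm ?_ ?_
    · calc a⁻¹ * b * w = a⁻¹ * (b * w * b⁻¹) * b := by group
        _ = _ := by rw [e]; group
    · calc a⁻¹ * b * (a * w * a⁻¹) = a⁻¹ * (b * (a * w * a⁻¹) * b⁻¹) * b := by group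
        _ = _ := by rw [r2]; group
  · left
    rw [e, ← mul_assoc w w, f_sq h hw, one_mul] at r2
    refine f_cent h hw w1 (mul_mem hw hu) (f_mul_ne_one h hw uw) (by simpa using w1) ?_ ?_
    · rw [← mul_inv_eq_iff_eq_mul]
      calc a * b * w * (a * b)⁻¹ = a * (b * w * b⁻¹) * a⁻¹ := by group
        _ = (a * w * a⁻¹) * (a * (a * w * a⁻¹) * a⁻¹) := by rw [e]; group
        _ = w := by rw [r1, f_comm h hw hu, ← mul_assoc, f_sq h hu, one_mul]
    · rw [← mul_inv_eq_iff_eq_mul]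
      calc a * b * (w * (a * w * a⁻¹)) * (a * b)⁻¹
          = a * (b * (w * (a * w * a⁻¹)) * b⁻¹) * a⁻¹ := by group
        _ = _ := by rw [r2, r1]

/-- `Q = W C_Q(a)` when `a` centralizes `Q / W` and has no fixed points on `W`. -/
theorem split (h : Four W) (ha : a ∈ stab Q W) (hf : W ⊓ centralizer ({a} : Set G) = ⊥)
    (hq : q ∈ Q) : ∃ w ∈ W, a * (w * q) = w * q * a := by
  have hw := ha.2 q hq
  have hu := conj_mem_of_mem_normalizer ha.1 hw
  have r := rot h ha.1 hf hw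
  refine ⟨_, hu, ?_⟩
  have e : q * a = ⁅q, a⁆ * (a * q) := by rw [commutatorElement_def]; group
  rw [mul_assoc _ q a, e]
  generalize ⁅q, a⁆ = w at hw hu r
  calc a * (a * w * a⁻¹ * q) = a * (a * w * a⁻¹) * a⁻¹ * (a * q) := by group
    _ = _ := by rw [r, f_comm h hw hu, mul_assoc]

theorem fpf_cj (hf : W ⊓ centralizer ({a} : Set G) = ⊥) (t : G) :
    cj t W ⊓ centralizer ({t * a * t⁻¹} : Set G) = ⊥ := by
  refine eq_bot_iff.2 fun v hv => mem_bot.2 ?_
  have h1 := mem_centralizer_singleton_iff.1 hv.2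
  have := fpf_eq hf (mem_cj.1 hv.1) (by
    calc a * (t⁻¹ * v * t) = t⁻¹ * (t * a * t⁻¹ * v) * t := by group
      _ = _ := by rw [← h1]; group)
  calc v = t * (t⁻¹ * v * t) * t⁻¹ := by group
    _ = 1 := by rw [this, mul_one, mul_inv_cancel]

theorem stab_cj (ha : a ∈ stab Q W) {t : G} (ht : t ∈ normalizer (Q : Set G)) :
    t * a * t⁻¹ ∈ stab Q (cj t W) := by
  refine ⟨by rw [← cj_normalizer]; exact conj_mem_cj ha.1, fun c hc => ?_⟩
  have := conj_mem_cj (g := t) (ha.2 _ (conj_mem_of_mem_normalizer' ht hc))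
  convert this using 1
  simp only [commutatorElement_def]; group

end four

variable [Finite G] {S P P' W W' D D' : Subgroup G} {x x' z z' s s' t g : G}

omit [Finite G] in
theorem z_eq (h : PX S P W x z s) (h' : PX S P' W' x' z' s')
    (nc : ¬ W ≤ centralizer (W' : Set G)) : z' = z := by
  obtain ⟨w, hw, hw'⟩ := SetLike.not_le_iff_exists.1 nc
  obtain ⟨v, hv, v1, v2⟩ := f_exists h'.bc.four z'
  have e := f_move h'.bc.four (h'.bc.nB (h.bc.le hw)) h'.zc.mem h'.zc.ne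
    (h'.zc.comm _ (h.bc.le hw)) hw' hv v1 v2
  refine h.zc.eq h.bc ?_ h'.zc.ne fun b hb => h'.zc.comm b hb
  have : z' = (v⁻¹ * w * v) * w⁻¹ := by
    calc z' = v⁻¹ * (v * z') := by group
      _ = _ := by rw [← e]; group
  rw [this]
  exact mul_mem (conj_mem_of_mem_normalizer' (h.bc.nB (h'.bc.le hv)) hw) (inv_mem hw)

omit [Finite G] in
theorem fix_inv (h : PX S P W x z s) (ht : t ∈ S) (e : cj t W ≠ W) :
    s⁻¹ * t * z = z * (s⁻¹ * t) := by
  rw [← h.fix (mul_mem (inv_mem h.mem) ht), ← cj_cj, (h.two t ht).resolve_left e, cj_inv_cj]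

omit [Finite G] in
theorem px_s (h : PX S P W x z s) (h' : PX S P' W' x' z s') : PX S P' W' x' z s := by
  have k : ∀ t ∈ S, cj t W' = W' ∨ cj t W' = cj s W' := fun t ht => by
    by_cases e : cj t W = W
    · exact Or.inl ((h'.fix ht).2 ((h.fix ht).1 e))
    · right
      have := (h'.fix (mul_mem (inv_mem h.mem) ht)).2 (fix_inv h ht e)
      rw [← cj_cj] at this
      rw [← this, cj_cj_inv, this]
  have e : cj s' W' = cj s W' := by
    rcases h'.two s h.mem with e | e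
    · rw [e]; exact (k s' h'.mem).elim id fun c => c.trans e
    · exact e.symm
  exact ⟨h'.syl, h'.chr, h'.sol, h'.eq, h'.odd, h'.bc, h'.zc, h.mem, k, h'.ind, e ▸ h'.core,
    h'.gen⟩

omit [Finite G] in
theorem fix2 (h : PX S P W x z s) (ht : t ∈ S) (e : t * z = z * t) :
    cj t (cj s W) = cj s W := by
  have e1 := (h.fix ht).2 e
  rw [cj_cj]
  refine (h.two _ (mul_mem ht h.mem)).elim (fun c => ?_) id
  rw [c]
  rw [← cj_cj, ← e1, cj_inj, e1] at c
  exact c.symm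

omit [Finite G] in
theorem cross (h : PX S P W x z s) (h' : PX S P' W' x' z s) (e : cj s W ≠ W) :
    W' ≤ centralizer (cj s W : Set G) := fun y hy w hw => by
  have h2 := h.cj h.mem
  have yB := h'.bc.le hy
  have wB := h2.bc.le hw
  rcases f_conj h2.bc.four (h2.bc.nB yB) h2.zc.mem h2.zc.ne (h2.zc.comm y yB) hw with e1 | e1
  · exact (mul_inv_eq_iff_eq_mul.1 e1).symm
  rcases f_conj h'.bc.four (h'.bc.nB wB) h'.zc.mem h'.zc.ne (h'.zc.comm w wB) hy with e2 | e2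
  · exact mul_inv_eq_iff_eq_mul.1 e2
  refine absurd ((h.fix h.mem).2 (mul_inv_eq_iff_eq_mul.1 ?_)) e
  rw [h2.zc.comm w wB] at e1
  rw [h'.zc.comm y yB] at e2
  calc s * z * s⁻¹ = (s * z * s⁻¹ * w) * w⁻¹ := by group
    _ = (w * y * w⁻¹ * y⁻¹)⁻¹ := by rw [← e1]; group
    _ = z := by rw [e2, mul_inv_cancel_right, f_inv h.bc.four h.zc.mem]

omit [Finite G] in
theorem corr (h : PX S P W x z s) (h' : PX S P' W' x' z s') (nc : ¬ W ≤ centralizer (W' : Set G))
    (ht : t ∈ S) (e : t * z = z * t) : ∃ a ∈ W', t * a ∈ centralizer (W : Set G) := by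
  by_cases c : t ∈ centralizer (W : Set G)
  · exact ⟨1, one_mem _, by simpa using c⟩
  obtain ⟨y, hy, hy'⟩ := SetLike.not_le_iff_exists.1 fun c => nc (le_centralizer_iff.1 c)
  exact ⟨y, hy, f_mul_cent h.bc.four (cj_eq_self_iff.1 ((h.fix ht).2 e)) (h.bc.nB (h'.bc.le hy))
    h.zc.mem h.zc.ne e (h.zc.comm y (h'.bc.le hy)) c hy'⟩

omit [Finite G] in
theorem mem_Q (h : PX S P W x z s) : t ∈ pCoreOf 2 P ↔
    t ∈ S ∧ t ∈ centralizer (W : Set G) ∧ t ∈ centralizer (cj s W : Set G) := by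
  rw [h.core, H98.centralizer_sup]; rfl

omit [Finite G] in
theorem dec (h : PX S P W x z s) (h' : PX S P' W' x' z s) (nc : ¬ W ≤ centralizer (W' : Set G)) :
    S ⊓ centralizer ({z} : Set G) ≤ pCoreOf 2 P ⊔ (W' ⊔ cj s W') := fun t ht => by
  have e := mem_centralizer_singleton_iff.1 ht.2
  obtain ⟨a, ha, h1⟩ := corr h h' nc ht.1 e
  have aS := mul_mem ht.1 (h'.W_le ha)
  have ha' : a ∈ pCoreOf 2 P ⊔ (W' ⊔ cj s W') := mem_sup_right (mem_sup_left ha)
  by_cases r : cj s W = W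
  · exact (mul_mem_cancel_right ha').1 (mem_sup_left ((mem_Q h).2 ⟨aS, h1, r.symm ▸ h1⟩))
  obtain ⟨b, hb, h2⟩ := corr (h.cj h.mem) (h'.cj h.mem)
    (by rwa [← cj_centralizer, cj_le_cj_iff]) aS
    (((h.cj h.mem).fix aS).1 (fix2 h aS (h1 z h.zc.mem).symm))
  have h3 := le_centralizer_iff.1 (cross h' h fun c => r ((h.fix h.mem).2 ((h'.fix h.mem).1 c))) hb
  refine (mul_mem_cancel_right ha').1 ((mul_mem_cancel_right
    (mem_sup_right (mem_sup_right hb))).1 (mem_sup_left ((mem_Q h).2 ⟨?_, mul_mem h1 h3, h2⟩)))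
  exact mul_mem aS ((h'.cj h.mem).W_le hb)

omit [Finite G] in
/-- An element of `P` centralizing `Q / W` and `W^s`, without fixed points on `W`. -/
theorem exists_g (h : PX S P W x z s) (h' : PX S P' W' x' z s)
    (nc : ¬ W ≤ centralizer (W' : Set G)) : ∃ g ∈ P, g ∈ stab (pCoreOf 2 P) W ∧
      W ⊓ centralizer ({g} : Set G) = ⊥ ∧ (cj s W ≠ W → g ∈ centralizer (cj s W : Set G)) := by
  obtain ⟨y, hy, hy'⟩ := SetLike.not_le_iff_exists.1 fun c => nc (le_centralizer_iff.1 c)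
  have yB := h'.bc.le hy
  have yP := h.le (h'.W_le hy)
  have f := h.bc.four
  have h1 : y ∈ stab (pCoreOf 2 P) W := ⟨h.bc.nB yB, fun q hq => by
    obtain ⟨q1, q2, -⟩ := (mem_Q h).1 hq
    have e := (q2 z h.zc.mem).symm
    rw [commutatorElement_def]
    rcases f_conj h'.bc.four (cj_eq_self_iff.1 ((h'.fix q1).2 e)) h'.zc.mem h'.zc.ne e hy
      with e1 | e1
    · rw [e1, mul_inv_cancel]; exact one_mem _
    · rw [e1, h'.zc.comm y yB, mul_inv_cancel_right]; exact h.zc.mem⟩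
  have h2 := stab_cj h1 (self_le_normalizer_pCoreOf P h.x_mem)
  rw [cj_eq_self h.bc.nx] at h2
  refine ⟨y * (x * y * x⁻¹), mul_mem yP (mul_mem (mul_mem h.x_mem yP) (inv_mem h.x_mem)),
    mul_mem h1 h2, eq_bot_iff.2 fun w hw => mem_bot.2 ?_, fun r => ?_⟩
  · have e := mem_centralizer_singleton_iff.1 hw.2
    have m2 := conj_mem_of_mem_normalizer h.bc.nx h.zc.mem
    have n2 : x * z * x⁻¹ ≠ 1 := by simpa [mul_inv_eq_one] using h.zc.ne
    have d2 : x * z * x⁻¹ ≠ z := fun c => h.x_move (mul_inv_eq_iff_eq_mul.1 c)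
    have c2 : x * y * x⁻¹ * (x * z * x⁻¹) = x * z * x⁻¹ * (x * y * x⁻¹) := by
      calc _ = x * (y * z) * x⁻¹ := by group
        _ = _ := by rw [h.zc.comm y yB]; group
    have c3 : x * y * x⁻¹ ∉ centralizer (W : Set G) := fun c =>
      hy' ((H98.normalizer_le_normalizer_centralizer W h.bc.nx y).2 c)
    have yi : y⁻¹ * z = z * y⁻¹ := h.zc.comm _ (inv_mem yB)
    have e1 : x * y * x⁻¹ * w * (x * y * x⁻¹)⁻¹ = y⁻¹ * w * y⁻¹⁻¹ := by
      calc _ = y⁻¹ * (y * (x * y * x⁻¹) * w) * (x * y * x⁻¹)⁻¹ := by group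
        _ = _ := by rw [← e]; group
    generalize x * y * x⁻¹ = y₂ at h2 c2 c3 e1
    generalize x * z * x⁻¹ = z₂ at m2 n2 d2 c2
    by_contra w1
    by_cases wz : w = z
    · subst wz
      rw [yi, inv_inv, inv_mul_cancel_right] at e1
      exact c3 (f_cent f m2 n2 hw.1 w1 d2.symm c2 (mul_inv_eq_iff_eq_mul.1 e1))
    · rw [f_move f (inv_mem h1.1) h.zc.mem h.zc.ne yi (fun c => hy' (inv_mem_iff.1 c)) hw.1 w1 wz]
        at e1
      rcases f_conj f h2.1 m2 n2 c2 hw.1 with e2 | e2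
      · exact h.zc.ne (by simpa using e1.symm.trans e2)
      · exact d2 (mul_left_cancel (e2.symm.trans e1))
  · have c1 := cross h h' r hy
    have c2 := (h.ind s h.mem r).2.2
    exact mul_mem c1 (mul_mem (mul_mem c2 c1) (inv_mem c2))

omit [Finite G] in
theorem V_le (h : PX S P W x z s) :
    W ⊔ cj s W ≤ pCoreOf 2 P ∧ ∀ v ∈ W ⊔ cj s W, v * v = 1 := by
  have c1 := ea_le_centralizer h.bc.four.ea
  by_cases r : cj s W = W
  · rw [r, sup_idem]
    exact ⟨fun w hw => (mem_Q h).2 ⟨h.W_le hw, c1 hw, r.symm ▸ c1 hw⟩, fun _ => f_sq h.bc.four⟩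
  have h2 := h.cj h.mem
  have c2 := (h.ind s h.mem r).2.1
  refine ⟨sup_le (fun w hw => (mem_Q h).2 ⟨h.W_le hw, c1 hw, c2 hw⟩) fun w hw =>
    (mem_Q h).2 ⟨h2.W_le hw, le_centralizer_iff.1 c2 hw, ea_le_centralizer h2.bc.four.ea hw⟩,
    fun v hv => ?_⟩
  obtain ⟨a, ha, b, hb, rfl⟩ := (mem_sup_left_norm (c2.trans (centralizer_le_normalizer _))).1 hv
  rw [mul_assoc, ← mul_assoc b, c2 ha b hb, mul_assoc, f_sq h2.bc.four hb, mul_one,
    f_sq h.bc.four ha]

/-- The stabilizer of `Q > V > 1` in `P` lies in `Q`. -/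
theorem T0_le (h : PX S P W x z s) : P ⊓ (centralizer ((W ⊔ cj s W : Subgroup G) : Set G) ⊓
    stab (pCoreOf 2 P) (W ⊔ cj s W)) ≤ pCoreOf 2 P := by
  refine le_pCoreOf (isPGroup_of_forall_pow_mem (isPGroup_pCoreOf P) fun c hc => ⟨1, ?_⟩)
    inf_le_left (H98.le_normalizer_inf le_normalizer (H98.le_normalizer_inf
      (H98.le_normalizer_centralizer h.nV) (le_normalizer_stab (self_le_normalizer_pCoreOf P) h.nV)))
  refine h.chr ⟨pow_mem hc.1 _, fun q hq => ?_⟩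
  have h1 := hc.2.2.2 q hq
  have e : q * c = ⁅q, c⁆ * c * q := by rw [commutatorElement_def]; group
  generalize ⁅q, c⁆ = v at h1 e
  calc q * c ^ 2 ^ 1 = q * c * c := by rw [pow_one, sq, mul_assoc]
    _ = v * c * (q * c) := by rw [← mul_assoc (v * c), ← e]
    _ = v * (c * v) * c * q := by rw [e]; simp only [mul_assoc]
    _ = _ := by rw [← hc.2.1 _ h1, ← mul_assoc, (V_le h).2 _ h1, pow_one, sq, one_mul]

/-- `Q = V × D` with `D` normal in `P` and centralized by `O²(P)`. -/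
theorem exists_D (h : PX S P W x z s) (gP : g ∈ P) (gs : g ∈ stab (pCoreOf 2 P) W)
    (gf : W ⊓ centralizer ({g} : Set G) = ⊥)
    (gc : cj s W ≠ W → g ∈ centralizer (cj s W : Set G)) :
    ∃ D, pCoreOf 2 P = W ⊔ cj s W ⊔ D ∧ (W ⊔ cj s W) ⊓ D = ⊥ ∧ P ≤ normalizer (D : Set G) ∧
      res 2 P ≤ centralizer (D : Set G) := by
  set Q := pCoreOf 2 P with hQ
  set V := W ⊔ cj s W with hV
  have nQ : P ≤ normalizer (Q : Set G) := self_le_normalizer_pCoreOf P
  have VQ : V ≤ Q := (V_le h).1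
  have QV : Q ≤ centralizer (V : Set G) := h.core.le.trans inf_le_right
  have h2 := h.cj h.mem
  have gs2 := stab_cj gs (nQ (h.le h.mem))
  have gf2 := fpf_cj gf s
  have gc2 : cj s W ≠ W → s * g * s⁻¹ ∈ centralizer (W : Set G) := fun r => by
    have := conj_mem_cj (g := s) (gc r)
    rwa [cj_centralizer, cj_cj, (h.two _ (mul_mem h.mem h.mem)).resolve_right fun c => r (by
      rwa [← cj_cj, cj_inj] at c)] at this
  set D := Q ⊓ centralizer {a | a = g ∨ (cj s W ≠ W ∧ a = s * g * s⁻¹)} with hD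
  have mD : ∀ d, d ∈ D ↔ d ∈ Q ∧ g * d = d * g ∧
      (cj s W ≠ W → s * g * s⁻¹ * d = d * (s * g * s⁻¹)) := fun d =>
    ⟨fun hd => ⟨hd.1, hd.2 g (Or.inl rfl), fun r => hd.2 _ (Or.inr ⟨r, rfl⟩)⟩, fun hd => ⟨hd.1, by
      rintro _ (rfl | ⟨r, rfl⟩)
      exacts [hd.2.1, hd.2.2 r]⟩⟩
  have k1 : ∀ q ∈ Q, ∃ v ∈ V, v * q ∈ D := fun q hq => by
    obtain ⟨w, hw, e⟩ := split h.bc.four gs gf hq
    have m := mul_mem (VQ (mem_sup_left hw)) hq
    by_cases r : cj s W = W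
    · exact ⟨w, mem_sup_left hw, (mD _).2 ⟨m, e, fun c => absurd r c⟩⟩
    obtain ⟨w₂, hw₂, e₂⟩ := split h2.bc.four gs2 gf2 m
    refine ⟨w₂ * w, mul_mem (mem_sup_right hw₂) (mem_sup_left hw), ?_⟩
    rw [mul_assoc]
    refine (mD _).2 ⟨mul_mem (VQ (mem_sup_right hw₂)) m, ?_, fun _ => e₂⟩
    rw [← mul_assoc, ← gc r w₂ hw₂, mul_assoc, e, ← mul_assoc]
  have k2 : V ⊓ D = ⊥ := eq_bot_iff.2 fun v hv => mem_bot.2 (by
    obtain ⟨-, e1, e2⟩ := (mD v).1 hv.2
    by_cases r : cj s W = W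
    · exact fpf_eq gf (sup_le le_rfl r.le hv.1) e1
    obtain ⟨a, ha, b, hb, rfl⟩ := (mem_sup_left_norm
      ((h.ind s h.mem r).2.1.trans (centralizer_le_normalizer _))).1 hv.1
    have a1 : a = 1 := fpf_eq gf ha (by
      rw [mul_assoc, gc r b hb, ← mul_assoc, ← mul_assoc] at e1
      exact mul_right_cancel e1)
    rw [a1, one_mul] at e2 ⊢
    exact fpf_eq gf2 hb (e2 r))
  set T := P ⊓ (centralizer (V : Set G) ⊓ stab Q V) with hT
  have nT : P ≤ normalizer (T : Set G) := H98.le_normalizer_inf le_normalizer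
    (H98.le_normalizer_inf (H98.le_normalizer_centralizer h.nV) (le_normalizer_stab nQ h.nV))
  have k3 : T ≤ centralizer (D : Set G) := fun c hc d hd => by
    obtain ⟨v, hv, h1⟩ := k1 c (T0_le h hc)
    have h3 : v * c ∈ stab Q V := mul_mem ⟨le_normalizer hv, fun q hq => by
      rw [commutatorElement_eq_one_iff_mul_comm.2 (QV hq v hv).symm]; exact one_mem _⟩ hc.2.2
    have h4 : ⁅d, v * c⁆ ∈ V ⊓ D := ⟨h3.2 d hd.1, H48.NG.comm_mem hd (le_normalizer h1)⟩
    rw [k2, mem_bot, commutatorElement_eq_one_iff_mul_comm, ← mul_assoc, ← QV hd.1 v hv,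
      mul_assoc, mul_assoc] at h4
    exact mul_left_cancel h4
  have gV : g ∈ stab Q V := ⟨h.nV gP, fun q hq => mem_sup_left (gs.2 q hq)⟩
  have k4 : ∀ t ∈ S, t * z = z * t → g * (t * g * t⁻¹) ∈ T ∨ g⁻¹ * (t * g * t⁻¹) ∈ T :=
    fun t ht e => by
      have e1 := (h.fix ht).2 e
      have p1 : t * g * t⁻¹ ∈ P := mul_mem (mul_mem (h.le ht) gP) (inv_mem (h.le ht))
      have p2 := conj_mem_of_mem_normalizer (le_normalizer_stab nQ h.nV (h.le ht)) gV
      have p3 : ∀ a ∈ zpowers g, a * (t * g * t⁻¹) ∈ centralizer (W : Set G) →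
          a * (t * g * t⁻¹) ∈ T := fun a ha c => by
        refine ⟨mul_mem (zpowers_le.2 gP ha) p1, ?_, mul_mem (zpowers_le.2 gV ha) p2⟩
        rw [hV, H98.centralizer_sup]
        by_cases r : cj s W = W
        · exact ⟨c, r.symm ▸ c⟩
        refine ⟨c, mul_mem (zpowers_le.2 (gc r) ha) ?_⟩
        rw [← fix2 h ht e, ← cj_centralizer]
        exact conj_mem_cj (gc r)
      exact (two_rot h.bc.four gs.1 gf (by rw [← e1, ← cj_normalizer]; exact conj_mem_cj gs.1)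
        (e1 ▸ fpf_cj gf t)).imp (p3 _ (mem_zpowers g)) (p3 _ (inv_mem (mem_zpowers g)))
  have gD : g ∈ centralizer (D : Set G) := fun d hd => ((mD d).1 hd).2.1.symm
  have k5 : ∀ t ∈ S, t * g * t⁻¹ ∈ centralizer (D : Set G) := fun t ht => by
    by_cases e : cj t W = W
    · rcases k4 t ht ((h.fix ht).1 e) with c | c
      · exact (mul_mem_cancel_left gD).1 (k3 c)
      · exact (mul_mem_cancel_left (inv_mem gD)).1 (k3 c)
    have r : cj s W ≠ W := fun c => e ((h.two t ht).elim id fun d => d.trans c)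
    have gD2 : s * g * s⁻¹ ∈ centralizer (D : Set G) := fun d hd => (((mD d).1 hd).2.2 r).symm
    rcases k4 _ (mul_mem (inv_mem h.mem) ht) (fix_inv h ht e) with c | c
    · refine (mul_mem_cancel_left gD2).1 ?_
      convert k3 (conj_mem_of_mem_normalizer (nT (h.le h.mem)) c) using 1
      group
    · refine (mul_mem_cancel_left (inv_mem gD2)).1 ?_
      convert k3 (conj_mem_of_mem_normalizer (nT (h.le h.mem)) c) using 1
      group
  have k6 : S ≤ normalizer (D : Set G) := fun t ht => mem_normalizer_of_cj_le (by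
    rintro _ ⟨d, hd, rfl⟩
    have k : ∀ u ∈ S, u * g * u⁻¹ * (t * d * t⁻¹) = t * d * t⁻¹ * (u * g * u⁻¹) := fun u hu => by
      calc _ = t * (t⁻¹ * u * g * (t⁻¹ * u)⁻¹ * d) * t⁻¹ := by group
        _ = _ := by rw [← k5 _ (mul_mem (inv_mem ht) hu) d hd]; group
    exact (mD _).2 ⟨conj_mem_of_mem_normalizer (nQ (h.le ht)) hd.1,
      by simpa using k 1 (one_mem _), fun _ => k s h.mem⟩)
  have k7 : S ⊔ zpowers g = P := h.gen _ le_sup_left (sup_le h.le (zpowers_le.2 gP)) g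
    (mem_sup_right (mem_zpowers g)) gs.1 fun c => h.zc.ne (fpf_eq gf h.zc.mem c)
  refine ⟨D, le_antisymm (fun q hq => ?_) (sup_le VQ inf_le_left), k2,
    k7.ge.trans (sup_le k6 (zpowers_le.2 (centralizer_le_normalizer _ gD))), ?_⟩
  · obtain ⟨v, hv, h1⟩ := k1 q hq
    exact (mul_mem_cancel_left (mem_sup_left hv)).1 (mem_sup_right h1)
  · exact (res_mono (k7.ge.trans (sup_le_sup_left (zpowers_le.2 gD) S))).trans
      (res_sup_le_right h.syl.isPGroup (H98.le_normalizer_centralizer k6))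

omit [Finite G] in
theorem D_cent (h : PX S P W x z s) (h' : PX S P' W' x' z s) (hD : D ≤ pCoreOf 2 P)
    (hi : (W ⊔ cj s W) ⊓ D = ⊥) (hn : P ≤ normalizer (D : Set G)) :
    D ≤ centralizer (W' : Set G) ∧ D ≤ pCoreOf 2 P' := by
  have k : D ≤ centralizer (W' : Set G) := fun d hd y hy => by
    obtain ⟨q1, q2, -⟩ := (mem_Q h).1 (hD hd)
    have e := (q2 z h.zc.mem).symm
    rcases f_conj h'.bc.four (cj_eq_self_iff.1 ((h'.fix q1).2 e)) h'.zc.mem h'.zc.ne e hy
      with e1 | e1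
    · exact (mul_inv_eq_iff_eq_mul.1 e1).symm
    refine absurd (mem_bot.1 (hi ▸ ⟨mem_sup_left h.zc.mem, ?_⟩)) h.zc.ne
    have : z = y⁻¹ * d * y * d⁻¹ := by
      calc z = y⁻¹ * (y * z) := by group
        _ = _ := by rw [← e1]; group
    rw [this]
    exact D.mul_mem (conj_mem_of_mem_normalizer' (hn (h.le (h'.W_le hy))) hd) (D.inv_mem hd)
  refine ⟨k, fun d hd => (mem_Q h').2 ⟨((mem_Q h).1 (hD hd)).1, k hd, ?_⟩⟩
  rw [← cj_centralizer]
  exact cj_mono s k ((cj_eq_self (hn (h.le h.mem))).ge hd)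

theorem jobNA : JobNA.{u} := by
  intro G _ _ S P P' W W' x x' z z' s s' h h' hO nc
  obtain rfl := z_eq h h' nc
  replace h' := px_s h h'
  have nc' : ¬ W' ≤ centralizer (W : Set G) := fun c => nc (le_centralizer_iff.1 c)
  obtain ⟨g, g1, g2, g3, g4⟩ := exists_g h h' nc
  obtain ⟨g', g1', g2', g3', g4'⟩ := exists_g h' h nc'
  obtain ⟨D, d1, d2, d3, d4⟩ := exists_D h g1 g2 g3 g4
  obtain ⟨D', d1', d2', d3', d4'⟩ := exists_D h' g1' g2' g3' g4'
  have dQ : D ≤ pCoreOf 2 P := le_sup_right.trans d1.ge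
  have dQ' : D' ≤ pCoreOf 2 P' := le_sup_right.trans d1'.ge
  obtain ⟨c1, c2⟩ := D_cent h h' dQ d2 d3
  obtain ⟨c1', c2'⟩ := D_cent h' h dQ' d2' d3'
  have tr : ∀ N : Subgroup G, N ≤ D → P ≤ normalizer (N : Set G) → P' ≤ normalizer (N : Set G) →
      N = ⊥ := fun N a b c => le_bot_iff.1 (hO ▸ le_pCoreOf
        ((isPGroup_pCoreOf P).to_le (a.trans dQ))
        (a.trans (dQ.trans ((pCoreOf_le P).trans le_sup_left))) (sup_le b c))
  let Sq : Subgroup G → Subgroup G := fun R => closure {t | ∃ r ∈ R, t = r * r}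
  have k1 : ∀ {P W D E : Subgroup G} {x : G}, PX S P W x z' s → pCoreOf 2 P = W ⊔ cj s W ⊔ D →
      P ≤ normalizer (D : Set G) → E ≤ pCoreOf 2 P → Sq E ≤ Sq D := by
    intro P W D E x h d n e
    refine closure_mono ?_
    rintro _ ⟨r, hr, rfl⟩
    obtain ⟨v, hv, b, hb, rfl⟩ := (mem_sup_left_norm ((V_le h).1.trans
      ((pCoreOf_le P).trans n))).1 (d.le (e hr))
    refine ⟨b, hb, ?_⟩
    rw [mul_assoc, ← mul_assoc b, ← (h.core.le (d.ge (mem_sup_right hb))).2 v hv, ← mul_assoc,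
      ← mul_assoc, (V_le h).2 v hv, one_mul]
  have k2 : ∀ {R H : Subgroup G}, H ≤ normalizer (R : Set G) →
      H ≤ normalizer (Sq R : Set G) := by
    intro R H hg g gH
    refine mem_normalizer_of_cj_le (cj_le_iff.2 ((closure_le _).2 ?_))
    rintro _ ⟨r, hr, rfl⟩
    refine mem_cj.2 (subset_closure ⟨g * r * g⁻¹, conj_mem_of_mem_normalizer (hg gH) hr, ?_⟩)
    group
  have e : Sq D = Sq D' := le_antisymm (k1 h' d1' d3' c2) (k1 h d1 d3 c2')
  have k3 : Sq D = ⊥ := tr _ ((closure_le _).2 (by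
    rintro _ ⟨r, hr, rfl⟩
    exact mul_mem hr hr)) (k2 d3) (e ▸ k2 d3')
  have k4 : ∀ {R : Subgroup G}, Sq R = ⊥ → IsElementaryAbelian 2 R := by
    intro R hR
    have h1 : ∀ r ∈ R, r * r = 1 := fun r hr => mem_bot.1 (hR ▸ subset_closure ⟨r, hr, rfl⟩)
    refine ea_of (fun a ha b hb => ?_) fun a ha => by rw [sq, h1 a ha]
    rw [← inv_eq_of_mul_eq_one_right (h1 _ (mul_mem ha hb)), mul_inv_rev,
      inv_eq_of_mul_eq_one_right (h1 a ha), inv_eq_of_mul_eq_one_right (h1 b hb)]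
  have ea := k4 k3
  have nS : S ≤ normalizer ((D ⊓ D' : Subgroup G) : Set G) :=
    H98.le_normalizer_inf (h.le.trans d3) (h'.le.trans d3')
  refine ⟨D, D', h, h', nc, ⟨d1, d2, d3, d4, c1, ea, dec h h' nc⟩,
    ⟨d1', d2', d3', d4', c1', k4 (e ▸ k3), dec h' h nc'⟩,
    tr _ inf_le_left (h.syl.sup_res.ge.trans (sup_le nS ?_))
      (h'.syl.sup_res.ge.trans (sup_le nS ?_)), le_antisymm (fun b hb => ⟨bm_le S hb,
        mem_centralizer_singleton_iff.2 (h.zc.comm b hb)⟩) fun t ht => mem_BT ht.1 ?_⟩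
  · exact d4.trans ((H98.centralizer_anti inf_le_left).trans (centralizer_le_normalizer _))
  · exact d4'.trans ((H98.centralizer_anti inf_le_right).trans (centralizer_le_normalizer _))
  have cB : BT S ≤ centralizer (oZ 2 (BT S) : Set G) := le_centralizer_oZ _
  have vB : W ⊔ cj s W ≤ BT S := sup_le h.bc.le (h.cj_le h.mem)
  refine (sup_le (d1.le.trans (sup_le (vB.trans cB) (le_centralizer_iff.1 ?_)))
    ((sup_le h'.bc.le (h'.cj_le h.mem)).trans cB)) (dec h h' nc ht)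
  refine le_trans (fun y hy => d1.le (h.core.ge ⟨bm_le S (oZ_le _ hy),
    H98.centralizer_anti vB (oZ_le_centralizer _ hy)⟩)) (sup_le ?_ (ea_le_centralizer ea))
  exact le_centralizer_iff.1 (dQ.trans (h.core.le.trans inf_le_right))

end H84.QPNA
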